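import Cfsg.Agent.Lib.SporadicOut.Fi22

/-!
The end of the centralizer argument in groups of large Fischer type: a finite group with a subgroup of index
two isomorphic to the Fischer group Fi22 and with trivial centralizer is the automorphism group of Fi22.
-/

set_option autoImplicit false
set_option linter.style.haveILetI false

namespace CfsgLib.LargeFischer.TypeTwo.AutEnd

theorem isSimpleGroup_fi22 : IsSimpleGroup Cfsg.Spor.Fi22 := Cfsg.Agent.S1696.result.1

theorem natCard_fi22 : Nat.card Cfsg.Spor.Fi22 = 64561751654400 := Cfsg.Agent.S1696.result.2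

theorem finite_fi22 : Finite Cfsg.Spor.Fi22 :=
  Nat.finite_of_card_ne_zero (by rw [natCard_fi22]; norm_num)

theorem not_isMulCommutative_fi22 : ¬ IsMulCommutative Cfsg.Spor.Fi22 := by
  intro h
  haveI := isSimpleGroup_fi22
  letI : CommGroup Cfsg.Spor.Fi22 :=
    { (inferInstance : Group Cfsg.Spor.Fi22) with mul_comm := fun a b => h.is_comm.comm a b }
  haveI := finite_fi22
  have hp : (Nat.card Cfsg.Spor.Fi22).Prime := IsSimpleGroup.prime_card
  rw [natCard_fi22] at hp
  exact absurd hp (fun hp => by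
    have := hp.eq_one_or_self_of_dvd 2 (by norm_num)
    omega)

theorem natCard_mulAut_fi22 :
    Nat.card (MulAut Cfsg.Spor.Fi22) = 2 * Nat.card Cfsg.Spor.Fi22 := by
  haveI := isSimpleGroup_fi22
  have hbot : Subgroup.center Cfsg.Spor.Fi22 = ⊥ := by
    rcases (inferInstance : (Subgroup.center Cfsg.Spor.Fi22).Normal).eq_bot_or_eq_top with h | h
    · exact h
    · refine absurd ⟨⟨fun x y => ?_⟩⟩ not_isMulCommutative_fi22
      exact (Subgroup.mem_center_iff.1 (h ▸ Subgroup.mem_top y : y ∈ Subgroup.center _) x)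
  have hker : Function.Injective (MulAut.conj : Cfsg.Spor.Fi22 →* MulAut Cfsg.Spor.Fi22) := by
    rw [injective_iff_map_eq_one]
    intro g hg
    have hg' : g ∈ Subgroup.center Cfsg.Spor.Fi22 := by
      refine Subgroup.mem_center_iff.2 fun x => ?_
      have h := DFunLike.congr_fun hg x
      rw [MulAut.conj_apply, MulAut.one_apply, mul_inv_eq_iff_eq_mul] at h
      exact h.symm
    rw [hbot, Subgroup.mem_bot] at hg'
    exact hg'
  have h := Subgroup.card_eq_card_quotient_mul_card_subgroup (Cfsg.Inn Cfsg.Spor.Fi22)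
  rw [h, show Nat.card (Cfsg.Out Cfsg.Spor.Fi22) = 2 from CfsgLib.SporadicOut.Fi22.natCard_out_fi22G,
    ← Nat.card_congr (MonoidHom.ofInjective hker).toEquiv]

theorem nonempty_mulAut {Y : Type*} [Group Y] [Finite Y] (N : Subgroup Y) [N.Normal] (hN : N.index = 2)
    (e : ↥N ≃* Cfsg.Spor.Fi22) (hc : ∀ y : Y, (∀ n ∈ N, y * n = n * y) → y = 1) :
    Nonempty (Y ≃* MulAut Cfsg.Spor.Fi22) := by
  have hcard : Nat.card (MulAut ↥N) = Nat.card Y := by
    rw [Nat.card_congr (MulAut.congr e).toEquiv, natCard_mulAut_fi22, ← Nat.card_congr e.toEquiv,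
      ← N.index_mul_card, hN]
  haveI : Finite (MulAut ↥N) :=
    Nat.finite_of_card_ne_zero (by rw [hcard]; exact Nat.card_pos.ne')
  have hinj : Function.Injective (MulAut.conjNormal : Y →* MulAut ↥N) := by
    rw [injective_iff_map_eq_one]
    refine fun y hy => hc y fun n hn => ?_
    have h := congrArg Subtype.val (DFunLike.congr_fun hy (⟨n, hn⟩ : ↥N))
    rw [MulAut.conjNormal_apply, MulAut.one_apply, mul_inv_eq_iff_eq_mul] at h
    exact h
  exact ⟨(MulEquiv.ofBijective _ ((Nat.bijective_iff_injective_and_card _).2 ⟨hinj, hcard.symm⟩)).trans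
    (MulAut.congr e)⟩

end CfsgLib.LargeFischer.TypeTwo.AutEnd
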