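import Cfsg.Agent.Lib.LargeFischer.TypeTwo.Pair
import Mathlib.GroupTheory.Index
import Mathlib.Algebra.Group.TypeTags.Basic

/-!
Large Fischer type: a character of `C_H(t)` nontrivial on the witness, and the absence of an element acting trivially
modulo `⟨t⟩` while exchanging `d` and `d t`.
-/

set_option autoImplicit false
set_option linter.unusedSectionVars false
set_option linter.style.haveILetI false

namespace CfsgLib.LargeFischer.TypeTwo.Pair

variable {G : Type*} [Group G] [Finite G] {z : G} {Q : Subgroup (Hz z)} [Q.Normal] (D : Pair z Q)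

/-- The centraliser of `t` in `H`. -/
abbrev CT : Subgroup (Hz z) := Subgroup.centralizer ({D.t} : Set (Hz z))

theorem mem_CT {h : Hz z} : h ∈ D.CT ↔ h * D.t = D.t * h := Subgroup.mem_centralizer_singleton_iff

/-- The part of `Q` commuting with `t` and `d`. -/
def Rq : Subgroup ↥D.CT where
  carrier := {h | (h : Hz z) ∈ Q ∧ (h : Hz z) * D.d = D.d * (h : Hz z)}
  one_mem' := ⟨Q.one_mem, by simp⟩
  mul_mem' {a b} ha hb := ⟨Q.mul_mem ha.1 hb.1,
    ((show Commute (a : Hz z) D.d from ha.2).mul_left (show Commute (b : Hz z) D.d from hb.2)).eq⟩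
  inv_mem' {a} ha := ⟨Q.inv_mem ha.1, (show Commute (a : Hz z) D.d from ha.2).inv_left.eq⟩

theorem mem_Rq {h : ↥D.CT} : h ∈ D.Rq ↔ (h : Hz z) ∈ Q ∧ (h : Hz z) * D.d = D.d * (h : Hz z) := Iff.rfl

/-- The elements normalising `⟨x⟩`. -/
def Nx : Subgroup ↥D.CT where
  carrier := {h | (h : Hz z) * D.x * (h : Hz z)⁻¹ = D.x ∨ (h : Hz z) * D.x * (h : Hz z)⁻¹ = D.x⁻¹}
  one_mem' := Or.inl (by simp)
  mul_mem' {a b} ha hb := by
    show (a : Hz z) * b * D.x * ((a : Hz z) * b)⁻¹ = D.x ∨ _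
    have key : (a : Hz z) * b * D.x * ((a : Hz z) * b)⁻¹ = a * (b * D.x * (b : Hz z)⁻¹) * (a : Hz z)⁻¹ := by group
    have inv : ∀ c : Hz z, c * D.x⁻¹ * c⁻¹ = (c * D.x * c⁻¹)⁻¹ := fun c => by group
    simp only [Subgroup.coe_mul]
    rw [key]
    rcases hb with e | e <;> rw [e] <;> (try rw [inv]) <;> rcases ha with e' | e' <;> rw [e']
    · exact Or.inl rfl
    · exact Or.inr rfl
    · exact Or.inr rfl
    · exact Or.inl (inv_inv _)
  inv_mem' {a} ha := by
    have inv : (a : Hz z)⁻¹ * D.x⁻¹ * a = ((a : Hz z)⁻¹ * D.x * a)⁻¹ := by group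
    rcases ha with e | e
    · left
      show (a : Hz z)⁻¹ * D.x * (a : Hz z)⁻¹⁻¹ = D.x
      conv_lhs => rw [← e]
      group
    · right
      show (a : Hz z)⁻¹ * D.x * (a : Hz z)⁻¹⁻¹ = D.x⁻¹
      have e' : (a : Hz z) * D.x⁻¹ * (a : Hz z)⁻¹ = D.x := by
        calc (a : Hz z) * D.x⁻¹ * (a : Hz z)⁻¹ = ((a : Hz z) * D.x * (a : Hz z)⁻¹)⁻¹ := by group
          _ = D.x := by rw [e, inv_inv]
      conv_lhs => rw [← e']
      group

theorem mem_Nx {h : ↥D.CT} :
    h ∈ D.Nx ↔ ((h : Hz z) * D.x * (h : Hz z)⁻¹ = D.x ∨ (h : Hz z) * D.x * (h : Hz z)⁻¹ = D.x⁻¹) := Iff.rfl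

theorem comm_d_conj {g q : Hz z} (hd : g * D.d * g⁻¹ = D.d ∨ g * D.d * g⁻¹ = D.d * D.t)
    (hg : g * D.t * g⁻¹ = D.t) (h1 : q * D.t = D.t * q) (h2 : q * D.d = D.d * q) :
    g⁻¹ * q * g * D.d = D.d * (g⁻¹ * q * g) := by
  have h3 : q * (g * D.d * g⁻¹) = g * D.d * g⁻¹ * q := by
    rcases hd with e | e <;> rw [e]
    · exact h2
    · exact ((show Commute q D.d from h2).mul_right (show Commute q D.t from h1)).eq
  calc g⁻¹ * q * g * D.d = g⁻¹ * (q * (g * D.d * g⁻¹)) * g := by group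
    _ = D.d * (g⁻¹ * q * g) := by rw [h3]; group

instance Rq_normal : D.Rq.Normal := by
  refine ⟨fun r hr g => ⟨conjQ _ hr.1, ?_⟩⟩
  obtain ⟨q, hq, n, hqn, hqt, hnt, -, hnd⟩ := D.decomp_t (D.mem_CT.1 g.2)
  have hnT : n * D.t * n⁻¹ = D.t := mul_inv_eq_iff_eq_mul.2 hnt
  have hninv : n⁻¹ * D.d * n⁻¹⁻¹ = D.d ∨ n⁻¹ * D.d * n⁻¹⁻¹ = D.d * D.t := by
    rcases hnd with e | e
    · left
      conv_lhs => rw [← e]
      group
    · right
      calc n⁻¹ * D.d * n⁻¹⁻¹ = n⁻¹ * (D.d * D.t * D.t) * n := by rw [mul_assoc D.d, D.t_sq, mul_one]; group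
        _ = (n⁻¹ * (n * D.d * n⁻¹) * n) * (n⁻¹ * D.t * n) := by rw [e]; group
        _ = D.d * D.t := by
          rw [show n⁻¹ * (n * D.d * n⁻¹) * n = D.d by group, show n⁻¹ * D.t * n = D.t by
            conv_lhs => rw [← hnT]
            group]
  have hnr := D.comm_d_conj hninv (by
    conv_lhs => rw [← hnT]
    group) (D.mem_CT.1 r.2) hr.2
  rw [inv_inv] at hnr
  show (g : Hz z) * r * (g : Hz z)⁻¹ * D.d = D.d * ((g : Hz z) * r * (g : Hz z)⁻¹)
  refine comm_of_near D.hs ?_ hnr.symm |>.symm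
  rw [hqn, show q * n * r * (q * n)⁻¹ = q * (n * r * n⁻¹) * q⁻¹ by group]
  exact near_conj_Q D.hs hq (conjQ _ hr.1)

/-- The kernel. -/
def K0 : Subgroup ↥D.CT := D.Rq ⊔ D.Nx

theorem exists_character {u : Hz z} (hu : D.Wit u) :
    ∃ χ : ↥D.CT →* Multiplicative (ZMod 2), χ ⟨u, D.mem_CT.2 hu.comm⟩ ≠ 1 := by
  classical
  set u' : ↥D.CT := ⟨u, D.mem_CT.2 hu.comm⟩
  have hu' : u' ∉ D.K0 := by
    intro h
    obtain ⟨r, hr, n, hn, e⟩ := Subgroup.mem_sup_of_normal_left.1 h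
    have hnQ : (n : Hz z) ∈ Q := by
      have : (n : Hz z) = (r : Hz z)⁻¹ * u := by
        rw [show u = ((r * n : ↥D.CT) : Hz z) from (congrArg Subtype.val e).symm, Subgroup.coe_mul,
          inv_mul_cancel_left]
      rw [this]
      exact Q.mul_mem (Q.inv_mem hr.1) hu.mem
    have hnr : n ∈ D.Rq := by
      refine ⟨hnQ, ?_⟩
      have hn1 : Near ((n : Hz z)) 1 := by
        rcases hn with e' | e'
        · refine D.fpf _ hnQ (Or.inl ?_)
          calc D.x * n * D.x⁻¹ = ((n : Hz z) * D.x * (n : Hz z)⁻¹) * n * D.x⁻¹ := by rw [e']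
            _ = n := by group
        · exfalso
          have h2 : D.x * D.x ∈ Q := by
            have h3 : (n : Hz z) * D.x * (n : Hz z)⁻¹ * D.x⁻¹ ∈ Q := by
              rw [show (n : Hz z) * D.x * (n : Hz z)⁻¹ * D.x⁻¹ = n * (D.x * (n : Hz z)⁻¹ * D.x⁻¹) by group]
              exact Q.mul_mem hnQ (conjQ _ (Q.inv_mem hnQ))
            rw [e', ← mul_inv_rev] at h3
            simpa using Q.inv_mem h3
          have hx : D.x ∈ Q := by
            have h4 : D.x * (D.x * D.x) * (D.x * D.x)⁻¹ = D.x := by group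
            rw [← h4, D.x3, one_mul]
            exact Q.inv_mem h2
          exact D.d_ne_t (near_conj_Q D.hs hx D.t_mem)
      rcases hn1 with e' | e' <;> rw [e']
      · simp
      · rw [mul_one]; exact (zH_comm D.d).symm
    have : u' ∈ D.Rq := e ▸ mul_mem hr hnr
    exact hu.ncomm this.2
  have hidx : D.K0.index = 2 := by
    refine Subgroup.index_eq_two_iff.2 ⟨u', fun b => ?_⟩
    obtain ⟨q, hq, n, hqn, hqt, hnt, hnx, -⟩ := D.decomp_t (D.mem_CT.1 b.2)
    have hb : b = ⟨q, D.mem_CT.2 hqt⟩ * ⟨n, D.mem_CT.2 hnt⟩ := Subtype.ext hqn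
    have hnK : (⟨n, D.mem_CT.2 hnt⟩ : ↥D.CT) ∈ D.K0 := Subgroup.mem_sup_right hnx
    have hcase : b ∈ D.K0 ∨ u' * b ∈ D.K0 := by
      by_cases h : q * D.d = D.d * q
      · exact Or.inl (hb ▸ mul_mem (Subgroup.mem_sup_left ⟨hq, h⟩) hnK)
      · refine Or.inr ?_
        rw [hb, ← mul_assoc]
        exact mul_mem (Subgroup.mem_sup_left ⟨Q.mul_mem hu.mem hq,
          (comm_mul_iff D.hs D.d_mem hu.mem hq).2 (iff_of_false hu.ncomm h)⟩) hnK
    haveI : D.K0.Normal := by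
      refine ⟨fun k hk g => ?_⟩
      have hgen : ∀ g : ↥D.CT, g ∈ D.Rq ⊔ D.Nx ∨ u' * g ∈ D.Rq ⊔ D.Nx := fun g => by
        obtain ⟨q, hq, n, hqn, hqt, hnt, hnx, -⟩ := D.decomp_t (D.mem_CT.1 g.2)
        have hg : g = ⟨q, D.mem_CT.2 hqt⟩ * ⟨n, D.mem_CT.2 hnt⟩ := Subtype.ext hqn
        by_cases h : q * D.d = D.d * q
        · exact Or.inl (hg ▸ mul_mem (Subgroup.mem_sup_left ⟨hq, h⟩) (Subgroup.mem_sup_right hnx))
        · refine Or.inr ?_
          rw [hg, ← mul_assoc]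
          exact mul_mem (Subgroup.mem_sup_left ⟨Q.mul_mem hu.mem hq,
            (comm_mul_iff D.hs D.d_mem hu.mem hq).2 (iff_of_false hu.ncomm h)⟩) (Subgroup.mem_sup_right hnx)
      have hui : ∀ k ∈ D.K0, u' * k * u'⁻¹ ∈ D.K0 := by
        intro k hk
        obtain ⟨r, hr, m, hm, rfl⟩ := Subgroup.mem_sup_of_normal_left.1 hk
        have hu2 : u' * u' = 1 := Subtype.ext hu.sq
        have hc : m * u' * m⁻¹ * u'⁻¹ ∈ D.Rq := by
          have hmQ : (m : Hz z) * u * (m : Hz z)⁻¹ ∈ Q := conjQ _ hu.mem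
          refine ⟨Q.mul_mem hmQ (Q.inv_mem hu.mem), ?_⟩
          show (m : Hz z) * u * (m : Hz z)⁻¹ * u⁻¹ * D.d = _
          refine (comm_mul_iff D.hs D.d_mem hmQ (Q.inv_mem hu.mem)).2 (iff_of_false (fun e => ?_) ?_)
          · have hm' : (m : Hz z) * D.t * (m : Hz z)⁻¹ = D.t := mul_inv_eq_iff_eq_mul.2 (D.mem_CT.1 m.2)
            have hd : (m : Hz z) * D.d * (m : Hz z)⁻¹ = D.d ∨ (m : Hz z) * D.d * (m : Hz z)⁻¹ = D.d * D.t := by
              rcases hm with e' | e'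
              · exact Or.inl ((D.norm_t (Or.inl hm')).1 e').2
              · exact Or.inr ((D.norm_t (Or.inl hm')).2 e').2
            have h5 := D.comm_d_conj hd hm' (by
              calc (m : Hz z) * u * (m : Hz z)⁻¹ * D.t
                  = (m : Hz z) * u * (m : Hz z)⁻¹ * ((m : Hz z) * D.t * (m : Hz z)⁻¹) := by rw [hm']
                _ = (m : Hz z) * (u * D.t) * (m : Hz z)⁻¹ := by group
                _ = ((m : Hz z) * D.t * (m : Hz z)⁻¹) * ((m : Hz z) * u * (m : Hz z)⁻¹) := by rw [hu.comm]; group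
                _ = _ := by rw [hm']) e
            rw [show (m : Hz z)⁻¹ * ((m : Hz z) * u * (m : Hz z)⁻¹) * m = u by group] at h5
            exact hu.ncomm h5
          · exact fun e => hu.ncomm (by simpa using comm_inv D.hs e)
        have hi : u'⁻¹ = u' := inv_eq_of_mul_eq_one_right hu2
        have : u' * (r * m) * u'⁻¹ = (u' * r * u'⁻¹) * (m * u' * m⁻¹ * u'⁻¹)⁻¹ * m := by
          rw [hi]
          calc u' * (r * m) * u' = u' * r * (u' * u') * m * u' := by rw [hu2]; group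
            _ = u' * r * u' * (u' * m * u' * m⁻¹) * m := by group
            _ = _ := by rw [show (m * u' * m⁻¹ * u')⁻¹ = u'⁻¹ * m * u'⁻¹ * m⁻¹ by group, hi]
        rw [this]
        exact mul_mem (mul_mem (Subgroup.mem_sup_left (D.Rq_normal.conj_mem _ hr u'))
          (Subgroup.mem_sup_left (inv_mem hc))) (Subgroup.mem_sup_right hm)
      rcases hgen g with hg | hg
      · exact mul_mem (mul_mem hg hk) (inv_mem hg)
      · have hu2 : u' * u' = 1 := Subtype.ext hu.sq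
        rw [show g * k * g⁻¹ = u'⁻¹ * ((u' * g) * k * (u' * g)⁻¹) * u'⁻¹⁻¹ by group,
          inv_eq_of_mul_eq_one_right hu2]
        exact hui _ (mul_mem (mul_mem hg hk) (inv_mem hg))
    have hex : ¬ (b * u' ∈ D.K0 ∧ b ∈ D.K0) := fun ⟨h1, h2⟩ => hu' (by
      have := mul_mem (inv_mem h2) h1
      rwa [inv_mul_cancel_left] at this)
    rcases hcase with h | h
    · exact Or.inr ⟨h, fun h' => hex ⟨h', h⟩⟩
    · have h1 : b * u' ∈ D.K0 := (Subgroup.Normal.mem_comm_iff inferInstance).1 h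
      exact Or.inl ⟨h1, fun h' => hex ⟨h1, h'⟩⟩
  refine ⟨MonoidHom.mk' (fun g => if g ∈ D.K0 then 1 else Multiplicative.ofAdd (1 : ZMod 2)) (fun a b => ?_),
    by simp [hu']⟩
  have h := Subgroup.mul_mem_iff_of_index_two hidx (a := a) (b := b)
  have h11 : Multiplicative.ofAdd (1 : ZMod 2) * Multiplicative.ofAdd (1 : ZMod 2) = 1 := by decide
  by_cases ha : a ∈ D.K0 <;> by_cases hb : b ∈ D.K0 <;> simp [ha, hb, h, h11]

theorem x_comm {p : Hz z} (h1 : p * D.t = D.t * p) (h2 : p * D.d = D.d * p) :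
    D.x * p * D.x⁻¹ * D.t = D.t * (D.x * p * D.x⁻¹) := by
  have h3 : p * (D.d * D.t) = D.d * D.t * p := ((show Commute p D.d from h2).mul_right h1).eq
  calc D.x * p * D.x⁻¹ * D.t = D.x * p * D.x⁻¹ * (D.x * (D.d * D.t) * D.x⁻¹) := by rw [D.x_dt]
    _ = D.x * (p * (D.d * D.t)) * D.x⁻¹ := by group
    _ = D.x * (D.d * D.t) * D.x⁻¹ * (D.x * p * D.x⁻¹) := by rw [h3]; group
    _ = _ := by rw [D.x_dt]

/-- An element of `C_H(t)` exchanging `d` and `d t` does not act trivially modulo `⟨t⟩`. -/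
theorem no_central {y : Hz z} (hy : y * D.t = D.t * y) (hd : y * D.d * y⁻¹ = D.d * D.t)
    (htriv : ∀ q ∈ Q, q * D.t = D.t * q → y * q * y⁻¹ = q ∨ y * q * y⁻¹ = D.t * q) : False := by
  classical
  obtain ⟨q0, hq0, n, hqn, -, -, hnx, hnd⟩ := D.decomp_t hy
  -- `n` inverts `x`
  have hinv : n * D.x * n⁻¹ = D.x⁻¹ := by
    rcases hnx with e | e
    · exfalso
      have hnt : n * D.t * n⁻¹ = D.t := by
        rcases hnd with h | h
        · have := congrArg (fun w => n⁻¹ * w * n) h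
          rw [d] at h
          rw [show n * (D.x * D.t * D.x⁻¹) * n⁻¹ = (n * D.x * n⁻¹) * (n * D.t * n⁻¹) * (n * D.x * n⁻¹)⁻¹ by group, e] at h
          exact mul_left_cancel (mul_right_cancel h)
        · rw [d] at h
          rw [show n * (D.x * D.t * D.x⁻¹) * n⁻¹ = (n * D.x * n⁻¹) * (n * D.t * n⁻¹) * (n * D.x * n⁻¹)⁻¹ by group, e] at h
          have h' := congrArg (fun w => D.x⁻¹ * w * D.x) h
          rw [show D.x⁻¹ * (D.x * (n * D.t * n⁻¹) * D.x⁻¹) * D.x = n * D.t * n⁻¹ by group] at h'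
          exfalso
          refine D.d_ne ?_
          have e2 : q0 * (n * D.d * n⁻¹) * q0⁻¹ = D.d * D.t := by rw [← hd, hqn]; group
          have hn' : n * D.d * n⁻¹ = D.x * (n * D.t * n⁻¹) * D.x⁻¹ := by
            rw [d, show n * (D.x * D.t * D.x⁻¹) * n⁻¹ = (n * D.x * n⁻¹) * (n * D.t * n⁻¹) * (n * D.x * n⁻¹)⁻¹ by group, e]
          have hnt2 : Near (n * D.t * n⁻¹) D.t := by
            have h0 : y * D.t * y⁻¹ = D.t := mul_inv_eq_iff_eq_mul.2 hy
            have h1 := near_symm D.hs (near_conj_Q D.hs hq0 (conjQ n D.t_mem))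
            rwa [show q0 * (n * D.t * n⁻¹) * q0⁻¹ = y * D.t * y⁻¹ by rw [hqn]; group, h0] at h1
          have := ((D.norm_t hnt2).1 e).2
          rw [this] at e2
          have h5 := near_conj_Q D.hs hq0 D.d_mem
          rw [e2] at h5
          exact absurd (near_symm D.hs h5) D.near_d_dt
      have := ((D.norm_t (Or.inl hnt)).1 e).2
      have h5 := near_conj_Q D.hs hq0 D.d_mem
      rw [show q0 * D.d * q0⁻¹ = y * D.d * y⁻¹ by
        conv_lhs => rw [← this]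
        rw [hqn]; group, hd] at h5
      exact D.near_d_dt (near_symm D.hs h5)
    · exact e
  -- `n` fixes every element of `R` modulo `⟨z, t⟩`
  have hR : ∀ p ∈ Q, p * D.t = D.t * p → Near (n * p * n⁻¹) p ∨ Near (n * p * n⁻¹) (D.t * p) := by
    intro p hp h1
    have h2 := near_symm D.hs (near_conj_Q D.hs hq0 (conjQ n hp))
    rw [show q0 * (n * p * n⁻¹) * q0⁻¹ = y * p * y⁻¹ by rw [hqn]; group] at h2
    rcases htriv p hp h1 with e | e <;> rw [e] at h2
    · exact Or.inl h2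
    · exact Or.inr h2
  let S : Finset (Hz z) :=
    [1, zH z, D.t, zH z * D.t, D.d * D.t, zH z * (D.d * D.t), D.d, zH z * D.d].toFinset
  let C := {q : Q // ∀ i : Fin 2, (q : Hz z) * ![D.t, D.d] i = ![D.t, D.d] i * (q : Hz z)}
  let a : C → Hz z := fun p => D.x⁻¹ * ((p.1 : Q) : Hz z) * D.x * (D.x * ((p.1 : Q) : Hz z) * D.x⁻¹)⁻¹
  have ha : ∀ p, a p ∈ S := by
    rintro ⟨⟨p, hp⟩, hp'⟩
    have h1 : p * D.t = D.t * p := hp' 0
    have h2 : p * D.d = D.d * p := hp' 1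
    have hxp := hR _ (conjQ D.x hp) (D.x_comm h1 h2)
    have hnp := hR p hp h1
    rw [show n * (D.x * p * D.x⁻¹) * n⁻¹ = (n * D.x * n⁻¹) * (n * p * n⁻¹) * (n * D.x * n⁻¹)⁻¹ by group,
      hinv, inv_inv] at hxp
    -- left side modulo `⟨z⟩`
    obtain ⟨c, hc, hc'⟩ : ∃ c ∈ ({1, D.d * D.t} : Finset (Hz z)),
        Near (D.x⁻¹ * (n * p * n⁻¹) * D.x) (c * (D.x⁻¹ * p * D.x)) := by
      rcases hnp with h | h
      · refine ⟨1, by simp, ?_⟩
        have := near_conj D.hs D.x⁻¹ h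
        simpa using this
      · refine ⟨D.d * D.t, by simp, ?_⟩
        have := near_conj D.hs D.x⁻¹ h
        rw [inv_inv, show D.x⁻¹ * (D.t * p) * D.x = (D.x⁻¹ * D.t * D.x) * (D.x⁻¹ * p * D.x) by group, D.xinv_t] at this
        exact this
    obtain ⟨e, he, he'⟩ : ∃ e ∈ ({1, D.t} : Finset (Hz z)),
        Near (D.x⁻¹ * (n * p * n⁻¹) * D.x) (e * (D.x * p * D.x⁻¹)) := by
      rcases hxp with h | h
      · exact ⟨1, by simp, by rw [one_mul]; exact h⟩
      · exact ⟨D.t, by simp, h⟩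
    have hke := near_trans D.hs (near_symm D.hs hc') he'
    have hce : Near (D.x⁻¹ * p * D.x * (D.x * p * D.x⁻¹)⁻¹) (c⁻¹ * e) := by
      have h3 := near_mul D.hs (near_mul D.hs (Or.inl rfl : Near c⁻¹ c⁻¹) hke)
        (Or.inl rfl : Near (D.x * p * D.x⁻¹)⁻¹ (D.x * p * D.x⁻¹)⁻¹)
      rwa [inv_mul_cancel_left, ← mul_assoc, mul_assoc (c⁻¹ * e), mul_inv_cancel, mul_one] at h3
    have hi : (D.d * D.t)⁻¹ = D.d * D.t := inv_eq_of_mul_eq_one_right D.dt_sq
    simp only [Finset.mem_insert, Finset.mem_singleton] at hc he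
    show D.x⁻¹ * p * D.x * (D.x * p * D.x⁻¹)⁻¹ ∈ S
    rcases hc with rfl | rfl <;> rcases he with rfl | rfl <;> rcases hce with k | k <;>
      rw [k] <;> simp [S, hi, mul_assoc, D.t_sq]
  have hfib : ∀ p p' : C, a p = a p' → ((p.1 : Q) : Hz z) = ((p'.1 : Q) : Hz z) ∨
      ((p.1 : Q) : Hz z) = zH z * ((p'.1 : Q) : Hz z) := by
    rintro ⟨⟨p, hp⟩, _⟩ ⟨⟨p', hp'⟩, _⟩ h
    have h : D.x⁻¹ * p * D.x * (D.x * p * D.x⁻¹)⁻¹ = D.x⁻¹ * p' * D.x * (D.x * p' * D.x⁻¹)⁻¹ := h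
    have hq : Near (p'⁻¹ * p) 1 := by
      refine D.pow_fpf (Q.mul_mem (Q.inv_mem hp') hp) (Or.inl ?_)
      calc D.x * (p'⁻¹ * p) * D.x⁻¹ = (D.x * p' * D.x⁻¹)⁻¹ * (D.x * p * D.x⁻¹) := by group
        _ = (D.x⁻¹ * p' * D.x)⁻¹ * (D.x⁻¹ * p' * D.x * (D.x * p' * D.x⁻¹)⁻¹) * (D.x * p * D.x⁻¹) := by group
        _ = (D.x⁻¹ * p' * D.x)⁻¹ * (D.x⁻¹ * p * D.x) := by rw [← h]; group
        _ = D.x⁻¹ * (p'⁻¹ * p) * D.x := by group
    rcases hq with e | e
    · exact Or.inl (inv_mul_eq_one.1 e).symm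
    · refine Or.inr ?_
      rw [mul_one, inv_mul_eq_iff_eq_mul, zH_comm] at e
      exact e
  have hc := card_comm_le D.hs ![D.t, D.d] (by
    intro i; fin_cases i
    · exact D.t_mem
    · exact D.d_mem)
  have h16 : Nat.card C ≤ 16 := by
    haveI : Fintype C := Fintype.ofFinite C
    rw [Nat.card_eq_fintype_card]
    calc Fintype.card C = (Finset.univ : Finset C).card := (Finset.card_univ).symm
      _ ≤ 2 * S.card := Finset.card_le_mul_card_image_of_maps_to (f := a) (fun p _ => ha p) 2 fun b _ => by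
        rcases Finset.eq_empty_or_nonempty ({p ∈ (Finset.univ : Finset C) | a p = b}) with h | ⟨p, hp⟩
        · rw [h]; simp
        · refine le_trans (Finset.card_le_card_of_injOn (fun q => (q.1 : Hz z))
            (t := {((p.1 : Q) : Hz z), zH z * ((p.1 : Q) : Hz z)}) (fun q hq => ?_) ?_) Finset.card_le_two
          · simp only [Finset.mem_coe, Finset.mem_filter] at hq hp
            simp only [Finset.mem_coe, Finset.mem_insert, Finset.mem_singleton]
            exact hfib q p (hq.2.trans hp.2.symm)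
          · intro q _ q' _ h
            exact Subtype.ext (Subtype.ext h)
      _ ≤ 2 * 8 := by
        refine Nat.mul_le_mul_left _ ?_
        exact List.toFinset_card_le _
  rw [D.hs.2.2.2.1] at hc
  exact absurd (hc.trans (Nat.mul_le_mul_right _ h16)) (by norm_num)

end CfsgLib.LargeFischer.TypeTwo.Pair
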