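import Cfsg.Agent.Lib.Cores.GenFitting

/-!
A normal subgroup which is a central extension of a nonabelian simple group by a central element of
its commutator subgroup, with trivial centraliser modulo that element, is quasisimple and is the
generalised Fitting subgroup.
-/

set_option autoImplicit false
set_option linter.style.haveILetI false

namespace CfsgLib.LargeFischer.TypeTwo.FStar

open Cfsg
open scoped commutatorElement

variable {Y : Type*} [Group Y] [Finite Y]

/-- The hypothesis `t * t = 1` is part of the interface; only centrality of `t` is used. -/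
theorem quasisimple_and_fstar (t : Y) (K : Subgroup Y) [K.Normal]
    (htc : ∀ y : Y, y * t = t * y) (_ht2 : t * t = 1) (htK : t ∈ ⁅K, K⁆)
    [((Subgroup.zpowers t).subgroupOf K).Normal]
    (hs : IsSimpleGroup (↥K ⧸ (Subgroup.zpowers t).subgroupOf K))
    (hna : ¬ IsMulCommutative (↥K ⧸ (Subgroup.zpowers t).subgroupOf K))
    (hcent : ∀ y : Y, (∀ k ∈ K, y * k * y⁻¹ * k⁻¹ ∈ Subgroup.zpowers t) →
      y ∈ Subgroup.zpowers t) :
    Cfsg.IsQuasisimple ↥K ∧ Cfsg.generalizedFittingSubgroup Y = K := by
  set Z := (Subgroup.zpowers t).subgroupOf K with hZ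
  have htK' : t ∈ K := Subgroup.commutator_le_self K htK
  have hZY : Subgroup.zpowers t ≤ Subgroup.center Y :=
    Subgroup.zpowers_le.2 (Subgroup.mem_center_iff.2 htc)
  have hZK : Z ≤ Subgroup.center K := fun z hz => Subgroup.mem_center_iff.2 fun k =>
    Subtype.ext (Subgroup.mem_center_iff.1 (hZY (Subgroup.mem_subgroupOf.1 hz)) k)
  have hZD : Z ≤ commutator K := by
    intro z hz
    have h1 : (z : Y) ∈ (commutator K).map K.subtype := by
      rw [commutator_def, Subgroup.map_commutator, ← MonoidHom.range_eq_map, Subgroup.range_subtype]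
      exact Subgroup.zpowers_le.2 htK (Subgroup.mem_subgroupOf.1 hz)
    obtain ⟨w, hw, hwz⟩ := h1
    exact (Subtype.ext hwz : w = z) ▸ hw
  set π := QuotientGroup.mk' Z with hπ
  have hsurj : Function.Surjective π := QuotientGroup.mk'_surjective Z
  have hker : π.ker = Z := QuotientGroup.ker_mk' Z
  haveI := hs
  haveI hperfQ : Group.IsPerfect (↥K ⧸ Z) := CfsgLib.Cores.isPerfect_of_isSimpleGroup hna
  -- `K` is perfect
  have hmapD : (commutator K).map π = ⊤ := by
    rw [commutator_def, Subgroup.map_commutator, ← MonoidHom.range_eq_map,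
      MonoidHom.range_eq_top.2 hsurj, ← commutator_def]
    exact (Group.isPerfect_def).1 hperfQ
  have hD : commutator K = ⊤ := by
    have h1 := congrArg (Subgroup.comap π) hmapD
    rw [Subgroup.comap_map_eq, Subgroup.comap_top, hker, sup_eq_left.2 hZD] at h1
    exact h1
  haveI : Group.IsPerfect K := Group.isPerfect_def.2 hD
  haveI : Nontrivial K := hsurj.nontrivial
  have hq : IsQuasisimple ↥K := CfsgLib.Cores.isQuasisimple_of_normal fun N hN hNtop => by
    haveI := hN
    haveI : (N.map π).Normal := hN.map π hsurj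
    rcases (inferInstance : (N.map π).Normal).eq_bot_or_eq_top with hb | ht
    · refine le_trans ?_ hZK
      rw [Subgroup.map_eq_bot_iff, hker] at hb
      exact hb
    · exfalso
      apply hNtop
      have h1 := congrArg (Subgroup.comap π) ht
      rw [Subgroup.comap_map_eq, Subgroup.comap_top, hker] at h1
      rw [eq_top_iff, ← hD, commutator_def, Subgroup.commutator_le]
      intro a _ b _
      have ha : a ∈ N ⊔ Z := h1 ▸ Subgroup.mem_top a
      obtain ⟨n, hn, z, hz, rfl⟩ := Subgroup.mem_sup_of_normal_left.1 ha
      have hzc : ∀ g : K, g * z = z * g := Subgroup.mem_center_iff.1 (hZK hz)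
      have hid : ⁅n * z, b⁆ = n * (b * n⁻¹ * b⁻¹) := by
        rw [commutatorElement_def, mul_inv_rev, mul_assoc n z b, ← hzc b]
        group
      rw [hid]
      exact N.mul_mem hn (hN.conj_mem _ (N.inv_mem hn) b)
  refine ⟨hq, le_antisymm (sup_le ?_ ?_) ?_⟩
  · -- the layer
    have hK : IsComponent K := ⟨(inferInstance : K.Normal).isSubnormal, hq⟩
    refine CfsgLib.Cores.layer_le_iff.2 fun L hL => ?_
    rcases eq_or_ne L K with rfl | hne
    · exact le_rfl
    · intro y hy
      refine Subgroup.zpowers_le.2 htK' (hcent y fun k hk => ?_)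
      have := Subgroup.mem_centralizer_iff.1
        (CfsgLib.Cores.le_centralizer_of_isComponent_ne hL hK hne hy) k hk
      rw [← this]
      simp [mul_assoc]
  · -- the Fitting subgroup
    intro y hy
    refine Subgroup.zpowers_le.2 htK' (hcent y fun k hk => ?_)
    have hKl : K ≤ Cfsg.layer Y :=
      CfsgLib.Cores.le_layer ⟨(inferInstance : K.Normal).isSubnormal, hq⟩
    have := Subgroup.mem_centralizer_iff.1
      (CfsgLib.Cores.fittingSubgroup_le_centralizer_layer hy) k (hKl hk)
    rw [← this]
    simp [mul_assoc]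
  · exact (CfsgLib.Cores.le_layer ⟨(inferInstance : K.Normal).isSubnormal, hq⟩).trans le_sup_left

end CfsgLib.LargeFischer.TypeTwo.FStar
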