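import Mathlib.GroupTheory.Transfer
import Mathlib.GroupTheory.PGroup
import Mathlib.Algebra.Group.TypeTags.Basic

/-!
The transfer of a character with values in `Z/2`, evaluated on an involution `u` by parity: if the only coset fixed
by `u` and by a 2-group `P` commuting with `u` is the trivial one and the character is nontrivial on `u`, then
so is the transfer.
-/

set_option autoImplicit false
set_option linter.unusedSectionVars false
set_option linter.style.haveILetI false

namespace CfsgLib.LargeFischer.TypeTwo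

open MulAction Subgroup

variable {Y : Type*} [Group Y] [Finite Y] {M : Subgroup Y}

theorem mult_cases : ∀ a : Multiplicative (ZMod 2), a = 1 ∨ a = Multiplicative.ofAdd (1 : ZMod 2) := by decide

theorem prod_eq_ofAdd_card {ι : Type*} [Fintype ι] (f : ι → Multiplicative (ZMod 2)) :
    ∏ i, f i = Multiplicative.ofAdd ((Finset.univ.filter fun i => f i ≠ 1).card : ZMod 2) := by
  rw [← Finset.prod_filter_ne_one, Finset.prod_congr rfl (fun i hi => ?_) (g := fun _ => Multiplicative.ofAdd (1 : ZMod 2)),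
    Finset.prod_const, ← ofAdd_nsmul, nsmul_one]
  exact (mult_cases (f i)).resolve_left (Finset.mem_filter.1 hi).2

theorem coset_smul (g a : Y) : g • (a : Y ⧸ M) = ((g * a : Y) : Y ⧸ M) := rfl

theorem fixed_iff (g a : Y) : g • (a : Y ⧸ M) = (a : Y ⧸ M) ↔ a⁻¹ * g * a ∈ M := by
  rw [coset_smul, eq_comm, QuotientGroup.eq, mul_assoc]

/-- Parity evaluation of the transfer. -/
theorem transfer_ne_one (χ : M →* Multiplicative (ZMod 2)) [M.FiniteIndex] (P : Subgroup Y) (hP : IsPGroup 2 P)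
    {u : Y} (hu : u * u = 1) (huM : u ∈ M) (hPu : ∀ p ∈ P, p * u = u * p) (hPM : P ≤ M)
    (hχ : χ ⟨u, huM⟩ ≠ 1)
    (hfix : ∀ g : Y, g⁻¹ * u * g ∈ M → (∀ p ∈ P, g⁻¹ * p * g ∈ M) → g ∈ M) :
    MonoidHom.transfer χ u ≠ 1 := by
  classical
  haveI : Fintype (Y ⧸ M) := Fintype.ofFinite _
  haveI : Fintype (Quotient (orbitRel (zpowers u) (Y ⧸ M))) := Fintype.ofFinite _
  -- the value at a coset fixed by `u`
  let val : Y → Prop := fun a => ∃ h : a⁻¹ * u * a ∈ M, χ ⟨_, h⟩ ≠ 1
  have hval : ∀ a b : Y, (a : Y ⧸ M) = (b : Y ⧸ M) → val a → val b := by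
    rintro a b hab ⟨h, hne⟩
    rw [QuotientGroup.eq] at hab
    have e : b⁻¹ * u * b = (a⁻¹ * b)⁻¹ * (a⁻¹ * u * a) * (a⁻¹ * b) := by group
    refine ⟨e ▸ M.mul_mem (M.mul_mem (M.inv_mem hab) h) hab, ?_⟩
    have e2 : (⟨b⁻¹ * u * b, e ▸ M.mul_mem (M.mul_mem (M.inv_mem hab) h) hab⟩ : M)
        = (⟨a⁻¹ * b, hab⟩ : M)⁻¹ * ⟨_, h⟩ * ⟨a⁻¹ * b, hab⟩ := Subtype.ext e
    rw [e2, map_mul, map_mul, map_inv, mul_comm, ← mul_assoc, mul_inv_cancel, one_mul]
    exact hne
  let S : SubMulAction P (Y ⧸ M) :=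
    { carrier := {c | val c.out}
      smul_mem' := by
        rintro ⟨p, hp⟩ c hc
        change val ((⟨p, hp⟩ : P) • c).out
        refine hval (p * c.out) _ ?_ ?_
        · rw [QuotientGroup.out_eq', ← coset_smul, QuotientGroup.out_eq']; rfl
        · obtain ⟨h, hne⟩ := hc
          have e : (p * c.out)⁻¹ * u * (p * c.out) = c.out⁻¹ * u * c.out := by
            calc (p * c.out)⁻¹ * u * (p * c.out) = c.out⁻¹ * p⁻¹ * (u * p) * c.out := by group
              _ = _ := by rw [← hPu p hp]; group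
          exact ⟨e ▸ h, by
            rw [show (⟨(p * c.out)⁻¹ * u * (p * c.out), e ▸ h⟩ : M) = ⟨_, h⟩ from Subtype.ext e]; exact hne⟩ }
  have hS : ∀ c, c ∈ S ↔ val c.out := fun c => Iff.rfl
  -- orbit representatives with nontrivial value are the fixed cosets in `S`
  rw [MonoidHom.transfer_eq_prod_quotient_orbitRel_zpowers_quot, prod_eq_ofAdd_card]
  have hcard : (Finset.univ.filter fun q : Quotient (orbitRel (zpowers u) (Y ⧸ M)) =>
      χ ⟨q.out.out⁻¹ * u ^ Function.minimalPeriod (u • ·) q.out * q.out.out,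
        QuotientGroup.out_conj_pow_minimalPeriod_mem M u q.out⟩ ≠ 1).card = Nat.card S := by
    have hper : ∀ c : Y ⧸ M, Function.minimalPeriod (u • ·) c = 1 ↔ u • c = c := fun c =>
      Function.minimalPeriod_eq_one_iff_isFixedPt
    have htwo : ∀ c : Y ⧸ M, ¬ u • c = c → Function.minimalPeriod (u • ·) c = 2 := fun c hc =>
      Function.minimalPeriod_eq_prime (hp := ⟨Nat.prime_two⟩) (by
        show u • (u • c) = c
        rw [smul_smul, hu, one_smul]) hc
    rw [← Nat.card_eq_finsetCard]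
    refine Nat.card_congr (Equiv.ofBijective (fun q => (⟨(q.1).out, ?_⟩ : S)) ⟨?_, ?_⟩)
    · have hq := (Finset.mem_filter.1 q.2).2
      by_cases hc : u • q.1.out = q.1.out
      · have hc' := hc
        rw [← QuotientGroup.out_eq' q.1.out, fixed_iff] at hc'
        refine (hS _).2 ⟨hc', ?_⟩
        convert hq using 3
        rw [(hper _).2 hc, pow_one]
      · exfalso
        refine hq ?_
        convert map_one χ using 2
        refine Subtype.ext ?_
        show _ * u ^ _ * _ = (1 : Y)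
        rw [htwo _ hc, pow_two, hu, mul_one, inv_mul_cancel]
    · intro a b h
      refine Subtype.ext (Quotient.out_injective ?_)
      exact congrArg Subtype.val h
    · rintro ⟨c, hc⟩
      obtain ⟨h, hne⟩ := (hS c).1 hc
      have hfx : u • c = c := by rw [← QuotientGroup.out_eq' c, fixed_iff]; exact h
      have hout : (⟦c⟧ : Quotient (orbitRel (zpowers u) (Y ⧸ M))).out = c := by
        obtain ⟨⟨g, hg⟩, hg'⟩ := orbitRel_apply.1 (Quotient.mk_out (s := orbitRel (zpowers u) (Y ⧸ M)) c)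
        rw [← hg']
        obtain ⟨k, rfl⟩ := mem_zpowers_iff.1 hg
        exact (MulAction.stabilizer Y c).zpow_mem hfx k
      refine ⟨⟨⟦c⟧, Finset.mem_filter.2 ⟨Finset.mem_univ _, ?_⟩⟩, Subtype.ext hout⟩
      convert hne using 3
      rw [hout, (hper _).2 hfx, pow_one]
  rw [hcard]
  have hmod := hP.card_modEq_card_fixedPoints (α := S)
  have hone : Nat.card (fixedPoints P S) = 1 := by
    rw [Nat.card_eq_one_iff_exists]
    have h1 : val ((1 : Y) : Y ⧸ M).out := hval 1 _ (QuotientGroup.out_eq' _).symm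
      ⟨by simpa using huM, by
        convert hχ using 3
        group⟩
    refine ⟨⟨⟨((1 : Y) : Y ⧸ M), h1⟩, fun p => Subtype.ext ?_⟩, ?_⟩
    · show (p : Y) • ((1 : Y) : Y ⧸ M) = _
      rw [fixed_iff]
      simpa using hPM p.2
    · rintro ⟨⟨c, hc⟩, hcfix⟩
      refine Subtype.ext (Subtype.ext ?_)
      show c = ((1 : Y) : Y ⧸ M)
      rw [← QuotientGroup.out_eq' c, QuotientGroup.eq, mul_one]
      obtain ⟨h, -⟩ := (hS c).1 hc
      refine M.inv_mem (hfix _ h fun p hp => (fixed_iff p c.out).1 ?_)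
      rw [QuotientGroup.out_eq']
      exact congrArg Subtype.val (hcfix ⟨p, hp⟩)
  rw [hone] at hmod
  intro h
  have hne : ((Nat.card S : ℕ) : ZMod 2) = ((1 : ℕ) : ZMod 2) := (ZMod.natCast_eq_natCast_iff _ _ _).2 hmod
  rw [ofAdd_eq_one, hne, Nat.cast_one] at h
  exact one_ne_zero h

end CfsgLib.LargeFischer.TypeTwo
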