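import Cfsg.Agent.Lib.LargeFischer.TypeTwo.Char
import Cfsg.Agent.Lib.LargeFischer.TypeTwo.Parity
import Mathlib.GroupTheory.Transfer

/-!
Large Fischer type: the centraliser in `G` of `t` has a subgroup of index two avoiding the witness, the kernel of
the transfer of the character of `C_H(t)`.
-/

set_option autoImplicit false
set_option linter.unusedSectionVars false
set_option linter.style.haveILetI false

namespace CfsgLib.LargeFischer.TypeTwo.Pair

variable {G : Type*} [Group G] [Finite G] {z : G} {Q : Subgroup (Hz z)} [Q.Normal] (D : Pair z Q)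

/-- The centraliser of `t` in `G`. -/
abbrev CG : Subgroup G := Subgroup.centralizer ({(D.t : G)} : Set G)

theorem mem_CG {g : G} : g ∈ D.CG ↔ g * (D.t : G) = (D.t : G) * g := Subgroup.mem_centralizer_singleton_iff

theorem t_ne_one : D.t ≠ 1 := fun h => D.t_ne (Or.inl h)

include D in
/-- An element of `Q` modulo `⟨z⟩` is not a conjugate of `z` if the given one is not. -/
theorem not_conj_near {a w : Hz z} (ha : a ∈ Q) (ha1 : a ≠ 1) (hn : ¬ IsConj z (a : G)) (h : Near w a) :
    ¬ IsConj z (w : G) := by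
  rcases h with rfl | rfl
  · exact hn
  · have haz : a ≠ zH z := fun e => hn (by rw [e]; exact IsConj.refl z)
    obtain ⟨y, -, hy⟩ := exists_conj D.hs ha ha1 haz
    intro hc
    exact hn (hc.trans (isConj_iff.2 ⟨(y : G)⁻¹, by rw [← hy]; simp [mul_assoc]⟩))

/-- The subgroup of index two avoiding the witness. -/
theorem exists_index_two {u : Hz z} (hu : D.Wit u) (ht : ¬ IsConj z (D.t : G)) (hun : ¬ IsConj z (u : G))
    (htun : ¬ IsConj z ((D.t * u : Hz z) : G)) :
    ∃ Y0 : Subgroup D.CG, Y0.index = 2 ∧ ∀ h : (u : G) ∈ D.CG, (⟨(u : G), h⟩ : D.CG) ∉ Y0 := by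
  classical
  obtain ⟨χ, hχ⟩ := D.exists_character hu
  set M : Subgroup D.CG := (Subgroup.centralizer ({z} : Set G)).subgroupOf D.CG with hM
  let j : M →* D.CT :=
    { toFun := fun m => ⟨⟨((m : D.CG) : G), m.2⟩, D.mem_CT.2 (Subtype.ext (D.mem_CG.1 (m : D.CG).2))⟩
      map_one' := rfl
      map_mul' := fun _ _ => rfl }
  have huc : (u : G) ∈ D.CG := D.mem_CG.2 (congrArg Subtype.val hu.comm)
  set u' : D.CG := ⟨(u : G), huc⟩
  have huM : u' ∈ M := u.2
  set χ' : M →* Multiplicative (ZMod 2) := χ.comp j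
  -- the elements of `Q` commuting with `t` and `u`
  let P : Subgroup D.CG :=
    { carrier := {y | (∃ hy : (y : G) ∈ Subgroup.centralizer ({z} : Set G), (⟨(y : G), hy⟩ : Hz z) ∈ Q) ∧ y * u' = u' * y}
      one_mem' := ⟨⟨one_mem _, Q.one_mem⟩, by rw [one_mul, mul_one]⟩
      mul_mem' := fun {a b} ha hb => ⟨⟨mul_mem ha.1.1 hb.1.1, Q.mul_mem ha.1.2 hb.1.2⟩,
        ((show Commute a u' from ha.2).mul_left (show Commute b u' from hb.2)).eq⟩
      inv_mem' := fun {a} ha => ⟨⟨inv_mem ha.1.1, Q.inv_mem ha.1.2⟩, (show Commute a u' from ha.2).inv_left.eq⟩ }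
  have hP : IsPGroup 2 P := by
    intro p
    obtain ⟨⟨hy, hq⟩, -⟩ := p.2
    refine ⟨13, Subtype.ext (Subtype.ext ?_)⟩
    have h := pow_card_eq_one' (G := Q) (x := ⟨⟨((p : D.CG) : G), hy⟩, hq⟩)
    rw [show Nat.card Q = 2 ^ 13 from D.hs.2.2.2.1] at h
    have h' := congrArg (fun q : Q => ((q : Hz z) : G)) h
    simpa using h'
  have hfix : ∀ g : D.CG, g⁻¹ * u' * g ∈ M → (∀ p ∈ P, g⁻¹ * p * g ∈ M) → g ∈ M := by
    intro g hgu hgp
    set z' : G := (g : G) * z * (g : G)⁻¹
    have key : ∀ a : D.CG, g⁻¹ * a * g ∈ M → (a : G) * z' = z' * (a : G) := by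
      intro a ha
      have h1 : (g : G)⁻¹ * a * g * z = z * ((g : G)⁻¹ * a * g) := Subgroup.mem_centralizer_singleton_iff.1 ha
      calc (a : G) * z' = (g : G) * ((g : G)⁻¹ * a * g * z) * (g : G)⁻¹ := by simp only [z']; group
        _ = z' * (a : G) := by rw [h1]; simp only [z']; group
    have hzc : z * (D.t : G) = (D.t : G) * z := congrArg Subtype.val (zH_comm D.t).symm
    have hzP : (⟨z, D.mem_CG.2 hzc⟩ : D.CG) ∈ P :=
      ⟨⟨Subgroup.mem_centralizer_singleton_iff.2 rfl, zH_mem D.hs⟩,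
        Subtype.ext (congrArg Subtype.val (zH_comm u).symm :)⟩
    have hz' : z' ∈ Subgroup.centralizer ({z} : Set G) :=
      Subgroup.mem_centralizer_singleton_iff.2 (key _ (hgp _ hzP)).symm
    have hcases := hu.centralizes_cases (w := ⟨z', hz'⟩) fun p hp hpt hpu => Subtype.ext (key
      ⟨(p : G), D.mem_CG.2 (congrArg Subtype.val hpt)⟩
      (hgp _ ⟨⟨p.2, hp⟩, Subtype.ext (congrArg Subtype.val hpu :)⟩))
    have hconj : IsConj z ((⟨z', hz'⟩ : Hz z) : G) := isConj_iff.2 ⟨(g : G), rfl⟩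
    have htu1 : D.t * u ≠ 1 := fun e => hu.tu_ne (Or.inl e)
    rcases hcases with (h | h) | h | h | h
    · exfalso
      have h2 : z' = 1 := congrArg Subtype.val h
      exact zH_ne_one D.hs (Subtype.ext (conj_eq_one_iff.1 h2))
    · have h2 : z' = z := by
        have := congrArg Subtype.val h
        simpa [zH] using this
      exact Subgroup.mem_centralizer_singleton_iff.2 (mul_inv_eq_iff_eq_mul.1 h2)
    · exact absurd hconj (D.not_conj_near D.t_mem D.t_ne_one ht h)
    · exact absurd hconj (D.not_conj_near hu.mem (fun e => hu.u_ne (Or.inl e)) hun h)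
    · exact absurd hconj (D.not_conj_near (Q.mul_mem D.t_mem hu.mem) htu1 htun h)
  have hV := transfer_ne_one χ' P hP (u := u') (Subtype.ext (congrArg Subtype.val hu.sq :)) huM
    (fun p hp => hp.2) (fun p hp => hp.1.1) hχ hfix
  refine ⟨(MonoidHom.transfer χ').ker, ?_, fun h hmem => hV hmem⟩
  rw [Subgroup.index_ker]
  have htop : (MonoidHom.transfer χ').range = ⊤ := by
    refine eq_top_iff.2 fun a _ => ?_
    rcases mult_cases a with rfl | rfl
    · exact one_mem _
    · exact ⟨u', (mult_cases _).resolve_left hV⟩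
  rw [htop, Subgroup.card_top]
  simp

end CfsgLib.LargeFischer.TypeTwo.Pair
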