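import Cfsg.Agent.Lib.LargeFischer.Calc
import Mathlib.Combinatorics.Pigeonhole
import Mathlib.Algebra.Order.BigOperators.Group.Finset

/-!
Large Fischer type, an involution `t` of `Q` with `t · xtx⁻¹ · x²tx⁻² = 1` for the element `x` inducing the scalar:
commutation facts in `Q`.
-/

set_option autoImplicit false
set_option linter.unusedSectionVars false
set_option linter.style.haveILetI false

namespace CfsgLib.LargeFischer.TypeTwo

variable {G : Type*} [Group G] [Finite G] {z : G}
  {Q : Subgroup ↥(Subgroup.centralizer ({z} : Set G))} [Q.Normal]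

/-- The centraliser of `z`. -/
abbrev Hz {G : Type*} [Group G] (z : G) := ↥(Subgroup.centralizer ({z} : Set G))

/-- `a` and `b` agree modulo `⟨z⟩`. -/
def Near (a b : (Hz z)) : Prop := a = b ∨ a = zH z * b

section
variable (hs : Cfsg.IsExtraspecialCentralizerSetting z Q 6)
include hs

theorem near_symm {a b : (Hz z)} (h : Near a b) : Near b a := by
  rcases h with h | h
  · exact Or.inl h.symm
  · exact Or.inr (by rw [h, zH_cancel hs])

theorem near_trans {a b c : (Hz z)} (h : Near a b) (h' : Near b c) : Near a c := by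
  rcases h with rfl | rfl
  · exact h'
  · rcases h' with rfl | rfl
    · exact Or.inr rfl
    · exact Or.inl (zH_cancel hs c)

theorem near_mul {a b c d : (Hz z)} (h : Near a b) (h' : Near c d) : Near (a * c) (b * d) := by
  rcases h with rfl | rfl <;> rcases h' with rfl | rfl
  · exact Or.inl rfl
  · exact Or.inr (by rw [← mul_assoc, zH_comm, mul_assoc])
  · exact Or.inr (mul_assoc _ _ _)
  · exact Or.inl (by
      rw [mul_assoc, ← mul_assoc b, zH_comm, mul_assoc (zH z) b, zH_cancel hs])

theorem near_conj (g : (Hz z)) {a b : (Hz z)} (h : Near a b) : Near (g * a * g⁻¹) (g * b * g⁻¹) := by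
  rcases h with rfl | rfl
  · exact Or.inl rfl
  · exact Or.inr (conj_zH_mul g b)

theorem near_conj_Q {q a : (Hz z)} (hq : q ∈ Q) (ha : a ∈ Q) : Near (q * a * q⁻¹) a := conj_cases hs ha hq

theorem near_comm {a b : (Hz z)} (ha : a ∈ Q) (hb : b ∈ Q) : Near (a * b) (b * a) := by
  rcases conj_cases hs hb ha with h | h
  · exact Or.inl (mul_inv_eq_iff_eq_mul.1 h)
  · exact Or.inr (by rw [← mul_assoc]; exact mul_inv_eq_iff_eq_mul.1 h)

theorem near_one_of_near {a b : (Hz z)} (h : Near a b) : Near (a * b⁻¹) 1 := by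
  rcases h with rfl | rfl
  · exact Or.inl (mul_inv_cancel _)
  · exact Or.inr (by rw [mul_assoc, mul_inv_cancel])

theorem not_near_one {a : (Hz z)} (h1 : a ≠ 1) (hz : a ≠ zH z) : ¬ Near a 1 := by
  rintro (h | h)
  · exact h1 h
  · exact hz (h.trans (mul_one _))

theorem comm_of_near {p a b : (Hz z)} (h : Near a b) (hp : p * b = b * p) : p * a = a * p := by
  rcases h with rfl | rfl
  · exact hp
  · rw [← mul_assoc, zH_comm, mul_assoc, hp, mul_assoc]

theorem comm_mul_iff {a p q : (Hz z)} (ha : a ∈ Q) (hp : p ∈ Q) (hq : q ∈ Q) :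
    p * q * a = a * (p * q) ↔ (p * a = a * p ↔ q * a = a * q) := by
  have hz1 := zH_ne_one hs
  have key : ∀ {y : (Hz z)}, y ∈ Q → (y * a = a * y ↔ y * a * y⁻¹ = a) := fun _ => mul_inv_eq_iff_eq_mul.symm
  rw [key (Q.mul_mem hp hq), key hp, key hq,
    show p * q * a * (p * q)⁻¹ = p * (q * a * q⁻¹) * p⁻¹ by group]
  rcases conj_cases hs ha hq with e | e <;> rw [e]
  · simp
  · rw [conj_zH_mul]
    rcases conj_cases hs ha hp with e' | e' <;> rw [e']
    · simp [hz1]
    · simp [hz1, zH_cancel hs a]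

theorem comm_inv {a p : (Hz z)} (h : p * a = a * p) : p⁻¹ * a = a * p⁻¹ :=
  (show Commute p a from h).inv_left.eq

/-- Separation by commutation. -/
theorem exists_sep {a b : (Hz z)} (ha : a ∈ Q) (hb : b ∈ Q) (ha1 : a ≠ 1) (haz : a ≠ zH z) (hab : ¬ Near (a * b) 1) :
    ∃ q ∈ Q, q * a ≠ a * q ∧ q * b = b * q := by
  by_contra hcon
  push Not at hcon
  have hsub : ∀ q ∈ Q, q * b = b * q → q * a = a * q := fun q hq h => by
    by_contra h'
    exact hcon q hq h' h
  obtain ⟨q0, hq0, e0⟩ := exists_conj hs ha ha1 haz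
  have h0 : q0 * a ≠ a * q0 := fun h => zH_ne_one hs (by
    rw [mul_inv_eq_iff_eq_mul.2 h] at e0
    exact mul_eq_right.1 e0.symm)
  have h0b : q0 * b ≠ b * q0 := fun h => h0 (hsub q0 hq0 h)
  have key : ∀ q ∈ Q, (q * a = a * q ↔ q * b = b * q) := fun q hq => by
    refine ⟨fun h => ?_, hsub q hq⟩
    by_contra h'
    have h2 : q * q0 * b = b * (q * q0) := (comm_mul_iff hs hb hq hq0).2 ⟨fun e => absurd e h', fun e => absurd e h0b⟩
    have h3 := (comm_mul_iff hs ha hq hq0).1 (hsub _ (Q.mul_mem hq hq0) h2)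
    exact h0 (h3.1 h)
  refine hab ?_
  suffices hc : ∀ q ∈ Q, a * b * q = q * (a * b) by
    rcases center_cases hs (Q.mul_mem ha hb) hc with h | h
    · exact Or.inl h
    · exact Or.inr (by rw [h, mul_one])
  intro q hq
  by_cases h : q * a = a * q
  · exact ((show Commute q a from h).mul_right (show Commute q b from (key q hq).1 h)).eq.symm
  have h' : ¬ q * b = b * q := fun e => h ((key q hq).2 e)
  have ea : q * a = zH z * (a * q) := by
    rcases conj_cases hs ha hq with e | e
    · exact absurd (mul_inv_eq_iff_eq_mul.1 e) h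
    · rw [mul_inv_eq_iff_eq_mul] at e; rw [e, mul_assoc]
  have eb : q * b = zH z * (b * q) := by
    rcases conj_cases hs hb hq with e | e
    · exact absurd (mul_inv_eq_iff_eq_mul.1 e) h'
    · rw [mul_inv_eq_iff_eq_mul] at e; rw [e, mul_assoc]
  symm
  calc q * (a * b) = zH z * (a * q) * b := by rw [← mul_assoc, ea]
    _ = zH z * (a * (q * b)) := by group
    _ = zH z * (a * (zH z * (b * q))) := by rw [eb]
    _ = zH z * (zH z * (a * (b * q))) := by
        rw [← mul_assoc a (zH z), zH_comm a, mul_assoc (zH z) a]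
    _ = a * b * q := by rw [zH_cancel hs, mul_assoc]

/-- The double centraliser of a pair in `Q`. -/
theorem double_cent {a b qa qb w : (Hz z)} (ha : a ∈ Q) (hb : b ∈ Q) (hw : w ∈ Q) (hqa : qa ∈ Q) (hqb : qb ∈ Q)
    (haa : qa * a ≠ a * qa) (hab : qa * b = b * qa) (hba : qb * a = a * qb) (hbb : qb * b ≠ b * qb)
    (hcom : ∀ p ∈ Q, p * a = a * p → p * b = b * p → p * w = w * p) :
    Near w 1 ∨ Near w a⁻¹ ∨ Near w b⁻¹ ∨ Near w (b⁻¹ * a⁻¹) ∨ Near w (a⁻¹ * b⁻¹) := by
  -- an element commuting with both witnesses and with the common centraliser is central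
  have main : ∀ v ∈ Q, (∀ p ∈ Q, p * a = a * p → p * b = b * p → p * v = v * p) → qa * v = v * qa →
      qb * v = v * qb → Near v 1 := by
    intro v hv hvc h1 h2
    have step2 : ∀ q ∈ Q, q * a = a * q → q * v = v * q := by
      intro q hq hqA
      by_cases hqB : q * b = b * q
      · exact hvc q hq hqA hqB
      have h3 := hvc (q * qb) (Q.mul_mem hq hqb) ((comm_mul_iff hs ha hq hqb).2 (iff_of_true hqA hba))
        ((comm_mul_iff hs hb hq hqb).2 (iff_of_false hqB hbb))
      exact ((comm_mul_iff hs hv hq hqb).1 h3).2 h2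
    refine (center_cases hs hv fun q hq => ?_).elim Or.inl fun h => Or.inr (by rw [h, mul_one])
    by_cases hqA : q * a = a * q
    · exact (step2 q hq hqA).symm
    have h3 := step2 (q * qa) (Q.mul_mem hq hqa) ((comm_mul_iff hs ha hq hqa).2 (iff_of_false hqA haa))
    exact (((comm_mul_iff hs hv hq hqa).1 h3).2 h1).symm
  have hmul : ∀ v ∈ Q, (∀ p ∈ Q, p * a = a * p → p * b = b * p → p * v = v * p) →
      ∀ e ∈ Q, (∀ p ∈ Q, p * a = a * p → p * b = b * p → p * e = e * p) →
        ∀ p ∈ Q, p * a = a * p → p * b = b * p → p * (v * e) = v * e * p := fun v _ hv e _ he p hp h1 h2 =>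
    ((show Commute p v from hv p hp h1 h2).mul_right (show Commute p e from he p hp h1 h2)).eq
  have hflip : ∀ {q v e : (Hz z)}, q ∈ Q → v ∈ Q → e ∈ Q →
      (q * (v * e) = v * e * q ↔ (q * v = v * q ↔ q * e = e * q)) := fun {q v e} hq hv he => by
    have := comm_mul_iff hs hq hv he
    rw [eq_comm, this, eq_comm (a := v * q), eq_comm (a := e * q)]
  have hca : ∀ p ∈ Q, p * a = a * p → p * b = b * p → p * a = a * p := fun p _ h _ => h
  have hcb : ∀ p ∈ Q, p * a = a * p → p * b = b * p → p * b = b * p := fun p _ _ h => h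
  by_cases hA : qa * w = w * qa <;> by_cases hB : qb * w = w * qb
  · exact Or.inl (main w hw hcom hA hB)
  · refine Or.inr (Or.inr (Or.inl ?_))
    have h := main (w * b) (Q.mul_mem hw hb) (hmul w hw hcom b hb hcb)
      ((hflip hqa hw hb).2 (iff_of_true hA hab)) ((hflip hqb hw hb).2 (iff_of_false hB hbb))
    simpa [mul_assoc] using near_mul hs h (Or.inl rfl : Near b⁻¹ b⁻¹)
  · refine Or.inr (Or.inl ?_)
    have h := main (w * a) (Q.mul_mem hw ha) (hmul w hw hcom a ha hca)
      ((hflip hqa hw ha).2 (iff_of_false hA haa)) ((hflip hqb hw ha).2 (iff_of_true hB hba))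
    simpa [mul_assoc] using near_mul hs h (Or.inl rfl : Near a⁻¹ a⁻¹)
  · refine Or.inr (Or.inr (Or.inr (Or.inl ?_)))
    have h := main (w * a * b) (Q.mul_mem (Q.mul_mem hw ha) hb)
      (hmul _ (Q.mul_mem hw ha) (hmul w hw hcom a ha hca) b hb hcb)
      ((hflip hqa (Q.mul_mem hw ha) hb).2 (iff_of_true ((hflip hqa hw ha).2 (iff_of_false hA haa)) hab))
      ((hflip hqb (Q.mul_mem hw ha) hb).2
        (iff_of_false (fun e => hB (((hflip hqb hw ha).1 e).2 hba)) hbb))
    simpa [mul_assoc] using near_mul hs h (Or.inl rfl : Near (b⁻¹ * a⁻¹) (b⁻¹ * a⁻¹))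

/-- Many elements of `Q` commute with a short list. -/
theorem card_comm_le {k : ℕ} (a : Fin k → (Hz z)) (ha : ∀ i, a i ∈ Q) :
    Nat.card Q ≤ Nat.card {q : Q // ∀ i, (q : (Hz z)) * a i = a i * (q : (Hz z))} * 2 ^ k := by
  classical
  haveI : Fintype Q := Fintype.ofFinite Q
  set C := Finset.univ.filter fun q : Q => ∀ i, (q : (Hz z)) * a i = a i * (q : (Hz z))
  let f : Q → (Fin k → Bool) := fun q i => decide ((q : (Hz z)) * a i = a i * (q : (Hz z)))
  have e : Nat.card {q : Q // ∀ i, (q : (Hz z)) * a i = a i * (q : (Hz z))} = C.card := by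
    rw [← Nat.card_eq_finsetCard]
    exact Nat.card_congr (Equiv.subtypeEquivRight fun q => by simp [C])
  rw [e, Nat.card_eq_fintype_card]
  calc Fintype.card Q = (Finset.univ : Finset Q).card := (Finset.card_univ).symm
    _ ≤ C.card * ((Finset.univ : Finset Q).image f).card := by
      refine Finset.card_le_mul_card_image _ _ fun b hb => ?_
      obtain ⟨q0, -, rfl⟩ := Finset.mem_image.1 hb
      refine Finset.card_le_card_of_injOn (fun q => q0⁻¹ * q) (fun q hq => ?_) fun _ _ _ _ h => mul_left_cancel h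
      rw [Finset.mem_coe, Finset.mem_filter] at hq
      refine Finset.mem_coe.2 (Finset.mem_filter.2 ⟨Finset.mem_univ _, fun i => ?_⟩)
      refine (comm_mul_iff hs (ha i) (Q.inv_mem q0.2) q.2).2 ⟨fun h => ?_, fun h => comm_inv hs ?_⟩
      · have h0 : (q0 : (Hz z)) * a i = a i * (q0 : (Hz z)) := by simpa using comm_inv hs h
        exact decide_eq_true_iff.1 ((congrFun hq.2 i).trans (decide_eq_true h0))
      · exact decide_eq_true_iff.1 ((congrFun hq.2 i).symm.trans (decide_eq_true h))
    _ ≤ C.card * 2 ^ k := by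
      refine Nat.mul_le_mul_left _ ((Finset.card_le_univ _).trans ?_)
      simp

end

end CfsgLib.LargeFischer.TypeTwo
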