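import Cfsg.Agent.Lib.LargeFischer.TypeTwo.UExists
import Cfsg.Agent.Lib.LargeFischer.TypeTwo.Kernel
import Cfsg.Agent.Lib.LargeFischer.CoordsExists
import Cfsg.Agent.Lib.FischerLarge.U62.InstFinal

/-!
Large Fischer type: the pair of the first duad and its conjugate under the scalar element of a labelled setting.
-/

set_option autoImplicit false
set_option linter.unusedSectionVars false
set_option linter.style.haveILetI false

namespace CfsgLib.LargeFischer.TypeTwo

open Cfsg CfsgLib.FischerLarge CfsgLib.FischerLarge.U62 CfsgLib.Golay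

universe u

variable {G : Type u} [Group G] [Finite G] {z : G} {Q M : Subgroup (Hz z)} [hQn : Q.Normal]
  {P : Type} [Group P] [Finite P] {V : Type u} [AddCommGroup V] [Module K4 V] [Finite V]
  {L : Subgroup (V ≃ₗ[K4] V)} {f : L →* P} {h : V → V → K4} {π : Hz z → V} {Ly : Layer z (U62.QG' Q)}
  {x : Hz z} {pf : GolayPt}

section
variable (St : Setup Q M L f h π Ly x pf)
include St

theorem scalar_eq_zero {a : V} (ha : (K4.om : K4) • a = a) : a = 0 := by
  have h' : ((K4.om : K4) + 1) • a = 0 := by rw [add_smul, one_smul, ha, St.ctx.frame.add_self]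
  exact (smul_eq_zero.1 h').resolve_left (by decide)

theorem near_one_iff {q : Hz z} (hq : q ∈ Q) : Near q 1 ↔ π q = 0 := by
  rw [St.ctx.frame.ker q hq]
  constructor
  · rintro (rfl | rfl)
    · exact Or.inl rfl
    · exact Or.inr (by simp [zH])
  · rintro (e | e)
    · exact Or.inl (Subtype.ext e)
    · exact Or.inr (by rw [mul_one]; exact Subtype.ext e)

theorem frame_map_inv {a : Hz z} (ha : a ∈ Q) : π a⁻¹ = π a := St.ctx.frame.map_inv ha

theorem pi_of_near (hs : IsExtraspecialCentralizerSetting z Q 6) {a b : Hz z} (ha : a ∈ Q) (hb : b ∈ Q)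
    (hab : Near a b) : π a = π b := by
  rcases hab with rfl | rfl
  · rfl
  · have hz0 : π (zH z) = 0 := (St.ctx.frame.ker _ (zH_mem hs)).2 (Or.inr (by simp [zH]))
    rw [St.ctx.frame.map_mul _ (zH_mem hs) _ hb, hz0, zero_add]

/-- The scalar element with `Q` is the normal subgroup of index `|H/Q|/3`. -/
theorem sup_eq_chain {N M' : Subgroup (Hz z)} (c : Chain z Q N M') : Subgroup.zpowers x ⊔ Q = N := by
  haveI : Fact (Nat.Prime 3) := ⟨Nat.prime_three⟩
  have hxne : x ≠ 1 := fun e => by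
    obtain ⟨q1, q2⟩ := U62.mem_QG'.1 St.base_mem
    have h1 := St.hx.2 _ q2
    rw [e, one_mul, inv_one, mul_one] at h1
    have h2 := scalar_eq_zero St h1.symm
    exact St.v_ne (by rw [baseV, show vecG π (Ly.D (pt 0) (pt 1)) = π ⟨_, q1⟩ from dif_pos q1, h2])
  have hcard : Nat.card (Subgroup.zpowers x) = 3 := by
    rw [Nat.card_zpowers, orderOf_eq_prime St.hx.1 hxne]
  refine c.sup_eq hcard ⟨fun y hy g => ?_⟩
  have hgx : g * x * g⁻¹ ∈ Subgroup.zpowers x ⊔ Q := by
    obtain ⟨e, he, hlin⟩ := St.ctx.frame.semi g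
    have hinv : ∀ a ∈ Q, π (g⁻¹ * a * g) = e.symm (π a) := fun a ha => by
      have ha' : g⁻¹ * a * g ∈ Q := by simpa using hQn.conj_mem a ha g⁻¹
      have := he _ ha'
      rw [show g * (g⁻¹ * a * g) * g⁻¹ = a by group] at this
      rw [this, e.symm_apply_apply]
    have key : ∃ k : K4, (k = K4.om ∨ k = K4.conj K4.om) ∧ ∀ a ∈ Q, π (g * x * g⁻¹ * a * (g * x * g⁻¹)⁻¹) = k • π a := by
      rcases hlin with hl | hl
      · refine ⟨_, Or.inl rfl, fun a ha => ?_⟩
        have ha' : g⁻¹ * a * g ∈ Q := by simpa using hQn.conj_mem a ha g⁻¹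
        rw [show g * x * g⁻¹ * a * (g * x * g⁻¹)⁻¹ = g * (x * (g⁻¹ * a * g) * x⁻¹) * g⁻¹ by group,
          he _ (hQn.conj_mem _ ha' x), St.hx.2 _ ha', hl, hinv a ha, e.apply_symm_apply]
      · refine ⟨_, Or.inr rfl, fun a ha => ?_⟩
        have ha' : g⁻¹ * a * g ∈ Q := by simpa using hQn.conj_mem a ha g⁻¹
        rw [show g * x * g⁻¹ * a * (g * x * g⁻¹)⁻¹ = g * (x * (g⁻¹ * a * g) * x⁻¹) * g⁻¹ by group,
          he _ (hQn.conj_mem _ ha' x), St.hx.2 _ ha', hl, hinv a ha, e.apply_symm_apply]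
    obtain ⟨k, hk, hka⟩ := key
    rcases hk with rfl | rfl
    · have hmem : g * x * g⁻¹ * x⁻¹ ∈ Q := by
        refine St.ctx.frame.faithful _ fun a ha => ?_
        have ha' : x⁻¹ * a * x ∈ Q := by simpa using hQn.conj_mem a ha x⁻¹
        rw [show g * x * g⁻¹ * x⁻¹ * a * (g * x * g⁻¹ * x⁻¹)⁻¹ = g * x * g⁻¹ * (x⁻¹ * a * x) * (g * x * g⁻¹)⁻¹ by group,
          hka _ ha', ← St.hx.2 _ ha', show x * (x⁻¹ * a * x) * x⁻¹ = a by group]
      have h2 := Subgroup.mul_mem (Subgroup.zpowers x ⊔ Q) (Subgroup.mem_sup_right hmem)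
        (Subgroup.mem_sup_left (Subgroup.mem_zpowers x))
      rwa [inv_mul_cancel_right] at h2
    · have hmem : g * x * g⁻¹ * x ∈ Q := by
        refine St.ctx.frame.faithful _ fun a ha => ?_
        rw [show g * x * g⁻¹ * x * a * (g * x * g⁻¹ * x)⁻¹ = g * x * g⁻¹ * (x * a * x⁻¹) * (g * x * g⁻¹)⁻¹ by group,
          hka _ (hQn.conj_mem a ha x), St.hx.2 a ha, smul_smul,
          show K4.conj K4.om * K4.om = 1 by decide, one_smul]
      have h2 := Subgroup.mul_mem (Subgroup.zpowers x ⊔ Q) (Subgroup.mem_sup_right hmem)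
        (Subgroup.mem_sup_left (Subgroup.inv_mem _ (Subgroup.mem_zpowers x)))
      rwa [mul_inv_cancel_right] at h2
  obtain ⟨a, ha, q, hq, rfl⟩ := Subgroup.mem_sup_of_normal_right.1 hy
  obtain ⟨i, rfl⟩ := Subgroup.mem_zpowers_iff.1 ha
  rw [show g * (x ^ i * q) * g⁻¹ = g * x ^ i * g⁻¹ * (g * q * g⁻¹) by group, ← conj_zpow]
  exact Subgroup.mul_mem _ (Subgroup.zpow_mem _ hgx i) (Subgroup.mem_sup_right (hQn.conj_mem q hq g))

/-- The pair of the first duad. -/
theorem exists_pair (hF : IsOfLargeFischerTypeAt z Q) :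
    ∃ (D : Pair z Q) (u : Hz z), (D.t : G) = Ly.D (pt 0) (pt 1) ∧ (D.d : G) ∈ fourGroup Ly ∧
      D.Wit u ∧ ¬ IsConj z (D.t : G) ∧ ¬ IsConj z (u : G) ∧ ¬ IsConj z ((D.t * u : Hz z) : G) := by
  obtain ⟨N, M', c⟩ := exists_chain hF
  obtain ⟨F⟩ := exists_coords hF
  have hs := c.setting
  have hsup := sup_eq_chain St c
  obtain ⟨t1, t2⟩ := U62.mem_QG'.1 St.base_mem
  set t : Hz z := ⟨_, t1⟩ with htdef
  have ht0 : π t ≠ 0 := fun e => St.v_ne ((dif_pos t1).trans e)
  have x3 : x * (x * x) = 1 := by rw [← mul_assoc, ← pow_two, ← pow_succ]; exact St.hx.1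
  have hfour := x_conj_four St.ctx St.hx St.hd
    (D_mem_fourGroup Ly (p := pt 0) (q := pt 1) (Or.inl rfl) (Or.inr (Or.inl rfl)))
  have hcard3 : Nat.card (Subgroup.zpowers x) = 3 := by
    haveI : Fact (Nat.Prime 3) := ⟨Nat.prime_three⟩
    rw [Nat.card_zpowers, orderOf_eq_prime St.hx.1]
    intro e
    have h1 := St.hx.2 _ t2
    rw [e, one_mul, inv_one, mul_one] at h1
    exact ht0 (scalar_eq_zero St h1.symm)
  -- the sum of the three vectors vanishes
  have htri : t * (x * t * x⁻¹) * (x * (x * t * x⁻¹) * x⁻¹) = 1 := by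
    have hq1 : x * t * x⁻¹ ∈ Q := hQn.conj_mem t t2 x
    have hq2 : x * (x * t * x⁻¹) * x⁻¹ ∈ Q := hQn.conj_mem _ hq1 x
    have hmem : ((t * (x * t * x⁻¹) * (x * (x * t * x⁻¹) * x⁻¹) : Hz z) : G) ∈ fourGroup Ly := by
      refine mul_mem (mul_mem ?_ hfour) (x_conj_four St.ctx St.hx St.hd hfour)
      exact D_mem_fourGroup Ly (p := pt 0) (q := pt 1) (Or.inl rfl) (Or.inr (Or.inl rfl))
    have hv : π (t * (x * t * x⁻¹) * (x * (x * t * x⁻¹) * x⁻¹)) = 0 := by
      rw [St.ctx.frame.map_mul _ (Q.mul_mem t2 hq1) _ hq2, St.ctx.frame.map_mul _ t2 _ hq1, St.hx.2 _ hq1,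
        St.hx.2 _ t2, smul_smul]
      have hk : (1 : K4) + K4.om + K4.om * K4.om = 0 := by decide
      have e0 : ((1 : K4) + K4.om + K4.om * K4.om) • π t = 0 := by rw [hk, zero_smul]
      simpa [add_smul] using e0
    rcases (St.ctx.frame.ker _ (Q.mul_mem (Q.mul_mem t2 hq1) hq2)).1 hv with e | e
    · exact Subtype.ext e
    · rw [e] at hmem; exact absurd hmem (z_notMem_four St.ctx)
  let D : Pair z Q :=
    { hs := hs
      x := x
      x3 := x3
      decomp := fun g => by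
        obtain ⟨q, hq, hqg⟩ := c.exists_mul_mem_normalizer hcard3 hsup g
        refine ⟨q⁻¹, Q.inv_mem hq, q * g, by group, ?_⟩
        have hm := (Subgroup.mem_normalizer_iff.1 hqg x).1 (Subgroup.mem_zpowers x)
        obtain ⟨k, hk⟩ := Subgroup.mem_zpowers_iff.1 hm
        have h3 : x ^ (3 : ℤ) = 1 := by rw [zpow_ofNat]; exact St.hx.1
        have hk' : q * g * x * (q * g)⁻¹ = x ^ (k % 3) := by
          rw [← hk]
          conv_lhs => rw [← Int.mul_ediv_add_emod k 3, zpow_add, zpow_mul, h3, one_zpow, one_mul]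
        obtain h | h | h : k % 3 = 0 ∨ k % 3 = 1 ∨ k % 3 = 2 := by omega
        · exfalso
          rw [h, zpow_zero, conj_eq_one_iff] at hk'
          rw [hk', Subgroup.zpowers_one_eq_bot, Subgroup.card_bot] at hcard3
          norm_num at hcard3
        · exact Or.inl (by rw [hk', h, zpow_one])
        · exact Or.inr (by rw [hk', h, zpow_ofNat, pow_two]; exact (inv_eq_of_mul_eq_one_right x3).symm)
      fpf := fun q hq hn => (near_one_iff St hq).2 <| scalar_eq_zero St <| by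
        rw [← St.hx.2 q hq]
        exact pi_of_near St hs (hQn.conj_mem q hq x) hq hn
      t := t
      t_mem := t2
      t_sq := Subtype.ext (Ly.D_mul_self _ _)
      t_ne := fun hn => ht0 ((near_one_iff St t2).1 hn)
      tri := htri }
  have hnt : ¬ IsConj z (D.t : G) := Ly.D_not_conj pt_small_ne.1
  obtain ⟨u, hu, hun, htun⟩ := exists_wit c F D hsup hnt
  exact ⟨D, u, rfl, hfour, hu, hnt, hun, htun⟩

end

end CfsgLib.LargeFischer.TypeTwo
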