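import Cfsg.Agent.Lib.LargeFischer.TypeTwo.Local

/-!
Large Fischer type: an involution `t` of `Q` and its images `d`, `t d` under the element `x` of order three above
`N / Q`; the centraliser of `t` in `H` is `C_Q(t)` times the elements normalising `⟨x⟩` that fix `t`.
-/

set_option autoImplicit false
set_option linter.unusedSectionVars false
set_option linter.style.haveILetI false

namespace CfsgLib.LargeFischer.TypeTwo

variable {G : Type*} [Group G] [Finite G]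

/-- An involution of `Q` with its orbit under the scalar. -/
structure Pair (z : G) (Q : Subgroup (Hz z)) [Q.Normal] where
  hs : Cfsg.IsExtraspecialCentralizerSetting z Q 6
  /-- the scalar -/
  x : Hz z
  x3 : x * (x * x) = 1
  decomp : ∀ h : Hz z, ∃ q ∈ Q, ∃ n : Hz z, h = q * n ∧ (n * x * n⁻¹ = x ∨ n * x * n⁻¹ = x⁻¹)
  fpf : ∀ q ∈ Q, Near (x * q * x⁻¹) q → Near q 1
  /-- the involution -/
  t : Hz z
  t_mem : t ∈ Q
  t_sq : t * t = 1
  t_ne : ¬ Near t 1
  tri : t * (x * t * x⁻¹) * (x * (x * t * x⁻¹) * x⁻¹) = 1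

namespace Pair

variable {z : G} {Q : Subgroup (Hz z)} [Q.Normal] (D : Pair z Q)

/-- The image of `t`. -/
def d : Hz z := D.x * D.t * D.x⁻¹

theorem conjQ (g : Hz z) {q : Hz z} (hq : q ∈ Q) : g * q * g⁻¹ ∈ Q :=
  Subgroup.Normal.conj_mem inferInstance q hq g

theorem x_inv : D.x⁻¹ = D.x * D.x := inv_eq_of_mul_eq_one_right D.x3

theorem d_mem : D.d ∈ Q := conjQ _ D.t_mem

theorem d_sq : D.d * D.d = 1 := by
  calc D.d * D.d = D.x * (D.t * D.t) * D.x⁻¹ := by rw [d]; group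
    _ = 1 := by rw [D.t_sq, mul_one, mul_inv_cancel]

theorem x_d : D.x * D.d * D.x⁻¹ = D.d * D.t := by
  have h := mul_eq_one_iff_inv_eq.1 D.tri
  rw [← show (D.t * (D.x * D.t * D.x⁻¹))⁻¹ = D.d * D.t by
    rw [mul_inv_rev, ← show D.d = D.x * D.t * D.x⁻¹ from rfl, inv_eq_of_mul_eq_one_right D.d_sq,
      inv_eq_of_mul_eq_one_right D.t_sq]]
  exact h.symm

theorem dt_sq : (D.d * D.t) * (D.d * D.t) = 1 := by
  rw [← D.x_d]
  calc D.x * D.d * D.x⁻¹ * (D.x * D.d * D.x⁻¹) = D.x * (D.d * D.d) * D.x⁻¹ := by group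
    _ = 1 := by rw [D.d_sq, mul_one, mul_inv_cancel]

theorem td_comm : D.t * D.d = D.d * D.t := by
  rw [← inv_eq_of_mul_eq_one_right D.dt_sq, mul_inv_rev, inv_eq_of_mul_eq_one_right D.d_sq,
    inv_eq_of_mul_eq_one_right D.t_sq]

theorem x_dt : D.x * (D.d * D.t) * D.x⁻¹ = D.t := by
  rw [show D.x * (D.d * D.t) * D.x⁻¹ = (D.x * D.d * D.x⁻¹) * (D.x * D.t * D.x⁻¹) by group, D.x_d,
    show D.x * D.t * D.x⁻¹ = D.d from rfl, mul_assoc, D.td_comm, ← mul_assoc, D.d_sq, one_mul]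

theorem xinv_t : D.x⁻¹ * D.t * D.x = D.d * D.t := by
  conv_lhs => rw [← D.x_dt]
  group

theorem d_ne : ¬ Near D.d 1 := fun h => D.t_ne (by
  have := near_conj D.hs D.x⁻¹ h
  rwa [d, show D.x⁻¹ * (D.x * D.t * D.x⁻¹) * D.x⁻¹⁻¹ = D.t by group,
    show D.x⁻¹ * 1 * D.x⁻¹⁻¹ = (1 : Hz z) by group] at this)

theorem d_ne_t : ¬ Near D.d D.t := fun h => D.t_ne (D.fpf _ D.t_mem h)

theorem dt_ne : ¬ Near (D.d * D.t) 1 := fun h => D.d_ne_t (by
  have := near_mul D.hs h (Or.inl rfl : Near D.t D.t)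
  rwa [mul_assoc, D.t_sq, mul_one, one_mul] at this)

theorem near_d_dt : ¬ Near D.d (D.d * D.t) := fun h => D.t_ne (by
  have := near_mul D.hs (Or.inl rfl : Near D.d⁻¹ D.d⁻¹) h
  rw [inv_mul_cancel, inv_mul_cancel_left] at this
  exact near_symm D.hs this)

theorem pow_fpf {q : Hz z} (hq : q ∈ Q) (h : Near (D.x * q * D.x⁻¹) (D.x⁻¹ * q * D.x)) : Near q 1 := by
  refine D.fpf _ hq (near_symm D.hs ?_)
  have h2 := near_conj D.hs D.x h
  rw [show D.x * (D.x⁻¹ * q * D.x) * D.x⁻¹ = q by group] at h2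
  have h3 := near_trans D.hs (near_symm D.hs h2) (Or.inl rfl)
  -- `q ≡ x² q x⁻²`
  have h4 := near_conj D.hs D.x h3
  have e : D.x * (D.x * (D.x * q * D.x⁻¹) * D.x⁻¹) * D.x⁻¹ = q := by
    calc D.x * (D.x * (D.x * q * D.x⁻¹) * D.x⁻¹) * D.x⁻¹ = (D.x * (D.x * D.x)) * q * (D.x * (D.x * D.x))⁻¹ := by group
      _ = q := by rw [D.x3, one_mul, inv_one, mul_one]
  rw [e] at h4
  exact near_symm D.hs h4

/-- An element normalising `⟨x⟩` and fixing `t` modulo `⟨z⟩` fixes `t`, and moves `d` accordingly. -/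
theorem norm_t {n : Hz z} (hn : Near (n * D.t * n⁻¹) D.t) :
    (n * D.x * n⁻¹ = D.x → n * D.t * n⁻¹ = D.t ∧ n * D.d * n⁻¹ = D.d) ∧
      (n * D.x * n⁻¹ = D.x⁻¹ → n * D.t * n⁻¹ = D.t ∧ n * D.d * n⁻¹ = D.d * D.t) := by
  have hz1 := zH_ne_one D.hs
  have hd : n * D.d * n⁻¹ = (n * D.x * n⁻¹) * (n * D.t * n⁻¹) * (n * D.x * n⁻¹)⁻¹ := by rw [d]; group
  have he : n * (D.d * D.t) * n⁻¹ = (n * D.d * n⁻¹) * (n * D.t * n⁻¹) := by group
  have he' : n * (D.d * D.t) * n⁻¹ = (n * D.x * n⁻¹) * (n * D.d * n⁻¹) * (n * D.x * n⁻¹)⁻¹ := by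
    rw [← D.x_d]; group
  constructor
  · intro hx
    rcases hn with ht | ht
    · exact ⟨ht, by rw [hd, hx, ht]; rfl⟩
    · exfalso
      have e1 : n * D.d * n⁻¹ = zH z * D.d := by rw [hd, hx, ht, conj_zH_mul]; rfl
      rw [he', hx, e1, conj_zH_mul, D.x_d, ht] at he
      refine hz1 ?_
      have : zH z * (D.d * D.t) = 1 * (D.d * D.t) := by
        rw [he, one_mul, mul_assoc (zH z) D.d, ← mul_assoc D.d, zH_comm, mul_assoc (zH z) D.d, zH_cancel D.hs]
      exact mul_right_cancel this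
  · intro hx
    have hi : (D.x⁻¹)⁻¹ = D.x := inv_inv _
    have e2 : D.x⁻¹ * D.d * D.x = D.t := by rw [d]; group
    rcases hn with ht | ht
    · exact ⟨ht, by rw [hd, hx, ht, hi, D.xinv_t]⟩
    · exfalso
      have e1 : n * D.d * n⁻¹ = zH z * (D.d * D.t) := by
        rw [hd, hx, ht, conj_zH_mul, hi, D.xinv_t]
      rw [he', hx, e1, conj_zH_mul, hi,
        show D.x⁻¹ * (D.d * D.t) * D.x = (D.x⁻¹ * D.d * D.x) * (D.x⁻¹ * D.t * D.x) by group, e2, D.xinv_t,
        ht] at he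
      refine hz1 ?_
      have hl : D.d * D.t * D.t = D.d := by rw [mul_assoc, D.t_sq, mul_one]
      have hl' : D.t * (D.d * D.t) = D.d := by rw [← mul_assoc, D.td_comm, hl]
      rw [hl', mul_assoc (zH z) (D.d * D.t), ← mul_assoc (D.d * D.t), zH_comm, mul_assoc (zH z) (D.d * D.t), hl,
        zH_cancel D.hs] at he
      exact mul_eq_right.1 he

/-- The centraliser of `t` in `H`. -/
theorem decomp_t {h : Hz z} (hh : h * D.t = D.t * h) : ∃ q ∈ Q, ∃ n : Hz z, h = q * n ∧ q * D.t = D.t * q ∧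
    n * D.t = D.t * n ∧ (n * D.x * n⁻¹ = D.x ∨ n * D.x * n⁻¹ = D.x⁻¹) ∧
      (n * D.d * n⁻¹ = D.d ∨ n * D.d * n⁻¹ = D.d * D.t) := by
  obtain ⟨q, hq, n, hqn, hx⟩ := D.decomp h
  have h0 : h * D.t * h⁻¹ = D.t := mul_inv_eq_iff_eq_mul.2 hh
  have e : q * (n * D.t * n⁻¹) * q⁻¹ = D.t := by
    calc q * (n * D.t * n⁻¹) * q⁻¹ = q * n * D.t * (q * n)⁻¹ := by group
      _ = D.t := by rw [← hqn, h0]
  have hnear : Near (n * D.t * n⁻¹) D.t := by
    have h1 := near_symm D.hs (near_conj_Q D.hs hq (conjQ n D.t_mem))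
    rwa [e] at h1
  obtain ⟨ht, hd⟩ : n * D.t * n⁻¹ = D.t ∧ (n * D.d * n⁻¹ = D.d ∨ n * D.d * n⁻¹ = D.d * D.t) := by
    rcases hx with hx | hx
    · exact ⟨((D.norm_t hnear).1 hx).1, Or.inl ((D.norm_t hnear).1 hx).2⟩
    · exact ⟨((D.norm_t hnear).2 hx).1, Or.inr ((D.norm_t hnear).2 hx).2⟩
  refine ⟨q, hq, n, hqn, ?_, mul_inv_eq_iff_eq_mul.1 ht, hx, hd⟩
  rw [ht] at e
  exact mul_inv_eq_iff_eq_mul.1 e

/-- The second witness. -/
structure Wit (u : Hz z) : Prop where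
  mem : u ∈ Q
  sq : u * u = 1
  comm : u * D.t = D.t * u
  ncomm : u * D.d ≠ D.d * u

variable {D} {u : Hz z}

theorem Wit.u_ne (hu : D.Wit u) : ¬ Near u 1 := by
  rintro (h | h)
  · exact hu.ncomm (by rw [h, one_mul, mul_one])
  · refine hu.ncomm ?_
    rw [h, mul_one]
    exact (zH_comm D.d).symm

theorem Wit.tu_ne (hu : D.Wit u) : ¬ Near (D.t * u) 1 := fun h => by
  have h' := near_mul D.hs (Or.inl rfl : Near D.t D.t) h
  rw [← mul_assoc, D.t_sq, one_mul, mul_one] at h'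
  exact hu.ncomm (comm_of_near D.hs h' D.td_comm.symm |> fun e => (comm_of_near D.hs h' (p := D.d) D.td_comm.symm).symm)

/-- The common centraliser in `Q` of `t` and `u` has a small centraliser in `Q`. -/
theorem Wit.double (hu : D.Wit u) {w : Hz z} (hw : w ∈ Q)
    (hcom : ∀ p ∈ Q, p * D.t = D.t * p → p * u = u * p → p * w = w * p) :
    Near w 1 ∨ Near w D.t ∨ Near w u ∨ Near w (D.t * u) := by
  have t1 : D.t ≠ 1 := fun h => D.t_ne (Or.inl h)
  have tz : D.t ≠ zH z := fun h => D.t_ne (Or.inr (by rw [h, mul_one]))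
  have u1 : u ≠ 1 := fun h => hu.u_ne (Or.inl h)
  have uz : u ≠ zH z := fun h => hu.u_ne (Or.inr (by rw [h, mul_one]))
  have hti : D.t⁻¹ = D.t := inv_eq_of_mul_eq_one_right D.t_sq
  have hui : u⁻¹ = u := inv_eq_of_mul_eq_one_right hu.sq
  obtain ⟨qa, hqa, haa, hab⟩ := exists_sep D.hs D.t_mem hu.mem t1 tz hu.tu_ne
  obtain ⟨qb, hqb, hbb, hba⟩ := exists_sep D.hs hu.mem D.t_mem u1 uz (by rw [hu.comm]; exact hu.tu_ne)
  rcases double_cent D.hs D.t_mem hu.mem hw hqa hqb haa hab hba hbb hcom with h | h | h | h | h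
  · exact Or.inl h
  · exact Or.inr (Or.inl (hti ▸ h))
  · exact Or.inr (Or.inr (Or.inl (hui ▸ h)))
  · rw [hti, hui, hu.comm] at h; exact Or.inr (Or.inr (Or.inr h))
  · rw [hti, hui] at h; exact Or.inr (Or.inr (Or.inr h))

theorem Wit.d_not_double (hu : D.Wit u) {w : Hz z} (hw : w ∈ Q)
    (hcom : ∀ p ∈ Q, p * D.t = D.t * p → p * u = u * p → p * w = w * p) : ¬ Near D.d w := by
  intro h
  refine hu.ncomm (comm_of_near D.hs h ?_)
  exact hcom u hu.mem hu.comm rfl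

/-- An element centralising the common centraliser in `Q` of `t` and `u` lies in `Q`. -/
theorem Wit.mem_of_centralizes (hu : D.Wit u) {w : Hz z}
    (hw : ∀ p ∈ Q, p * D.t = D.t * p → p * u = u * p → p * w = w * p) : w ∈ Q := by
  classical
  obtain ⟨q0, hq0, n, hqn, hx⟩ := D.decomp w
  let P : Hz z → Prop := fun p => p ∈ Q ∧ p * D.t = D.t * p ∧ p * u = u * p
  let W : Hz z → Prop := fun q => q ∈ Q ∧ Near (n * q * n⁻¹) q
  have hPW : ∀ p, P p → W p := fun p hp => ⟨hp.1, by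
    have e : w * p * w⁻¹ = p := mul_inv_eq_iff_eq_mul.2 (hw p hp.1 hp.2.1 hp.2.2).symm
    have h1 := near_symm D.hs (near_conj_Q D.hs hq0 (conjQ n hp.1))
    rwa [show q0 * (n * p * n⁻¹) * q0⁻¹ = w * p * w⁻¹ by rw [hqn]; group, e] at h1⟩
  have hWmul : ∀ a b, W a → W b → W (a * b) := fun a b ha hb => ⟨Q.mul_mem ha.1 hb.1, by
    have := near_mul D.hs ha.2 hb.2
    rwa [show n * a * n⁻¹ * (n * b * n⁻¹) = n * (a * b) * n⁻¹ by group] at this⟩
  rcases hx with hx | hx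
  · -- `n` centralises `x`: everything is fixed modulo `⟨z⟩`
    have hWx : ∀ q, W q → W (D.x * q * D.x⁻¹) := fun q hq => ⟨conjQ _ hq.1, by
      have := near_conj D.hs D.x hq.2
      have e : n * (D.x * q * D.x⁻¹) * n⁻¹ = (n * D.x * n⁻¹) * (n * q * n⁻¹) * (n * D.x * n⁻¹)⁻¹ := by group
      rwa [e, hx]⟩
    have hout : ∀ e ∈ Q, ¬ Near e 1 → Near e D.t ∨ Near e u ∨ Near e (D.t * u) →
        ∃ q, W q ∧ q * e ≠ e * q := by
      intro e heQ he1 hecase
      by_contra hcon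
      push Not at hcon
      have hW' : ∀ p, P p → p * (D.x * e * D.x⁻¹) = D.x * e * D.x⁻¹ * p := fun p hp => by
        have h1 := hcon _ (hWx _ (hWx _ (hPW p hp)))
        have e3 : D.x * (D.x * p * D.x⁻¹) * D.x⁻¹ = D.x⁻¹ * p * D.x := by
          calc D.x * (D.x * p * D.x⁻¹) * D.x⁻¹ = D.x * D.x * p * (D.x * D.x)⁻¹ := by group
            _ = _ := by rw [← D.x_inv, inv_inv]
        rw [e3] at h1
        calc p * (D.x * e * D.x⁻¹) = D.x * (D.x⁻¹ * p * D.x * e) * D.x⁻¹ := by group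
          _ = D.x * e * D.x⁻¹ * p := by rw [h1]; group
      have hW'' : ∀ p, P p → p * (D.x⁻¹ * e * D.x) = D.x⁻¹ * e * D.x * p := fun p hp => by
        have h1 := hcon _ (hWx _ (hPW p hp))
        calc p * (D.x⁻¹ * e * D.x) = D.x⁻¹ * (D.x * p * D.x⁻¹ * e) * D.x := by group
          _ = D.x⁻¹ * e * D.x * p := by rw [h1]; group
      have m1 : D.x * e * D.x⁻¹ ∈ Q := conjQ _ heQ
      have m2 : D.x⁻¹ * e * D.x ∈ Q := by simpa using conjQ D.x⁻¹ heQ
      have c1 := hu.double m1 fun p h1 h2 h3 => hW' p ⟨h1, h2, h3⟩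
      have c2 := hu.double m2 fun p h1 h2 h3 => hW'' p ⟨h1, h2, h3⟩
      -- one of `e, xex⁻¹, x⁻¹ex` is `t`, so the next one is `d`
      have step : ∀ f, Near f D.t → Near D.d (D.x * f * D.x⁻¹) := fun f hf =>
        near_symm D.hs (near_conj D.hs D.x hf)
      have n1 : ¬ Near (D.x * e * D.x⁻¹) 1 := fun h => he1 (by
        have := near_conj D.hs D.x⁻¹ h
        rwa [show D.x⁻¹ * (D.x * e * D.x⁻¹) * D.x⁻¹⁻¹ = e by group,
          show D.x⁻¹ * 1 * D.x⁻¹⁻¹ = (1 : Hz z) by group] at this)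
      have n2 : ¬ Near (D.x⁻¹ * e * D.x) 1 := fun h => he1 (by
        have := near_conj D.hs D.x h
        rwa [show D.x * (D.x⁻¹ * e * D.x) * D.x⁻¹ = e by group,
          show D.x * 1 * D.x⁻¹ = (1 : Hz z) by group] at this)
      have d1 : ¬ Near (D.x * e * D.x⁻¹) e := fun h => he1 (D.fpf e heQ h)
      have d2 : ¬ Near e (D.x⁻¹ * e * D.x) := fun h => n2 (D.fpf _ m2 (by
        rw [show D.x * (D.x⁻¹ * e * D.x) * D.x⁻¹ = e by group]; exact h))
      have d3 : ¬ Near (D.x * e * D.x⁻¹) (D.x⁻¹ * e * D.x) := fun h => he1 (D.pow_fpf heQ h)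
      have nd : ∀ {a b c : Hz z}, Near a c → Near b c → Near a b := fun h h' => near_trans D.hs h (near_symm D.hs h')
      have k1 : ¬ Near e D.t := fun h =>
        hu.d_not_double m1 (fun p h1 h2 h3 => hW' p ⟨h1, h2, h3⟩) (step e h)
      have k2 : ¬ Near (D.x⁻¹ * e * D.x) D.t := fun h => by
        have hd := step _ h
        rw [show D.x * (D.x⁻¹ * e * D.x) * D.x⁻¹ = e by group] at hd
        exact hu.d_not_double heQ (fun p h1 h2 h3 => hcon p (hPW p ⟨h1, h2, h3⟩)) hd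
      have k3 : ¬ Near (D.x * e * D.x⁻¹) D.t := fun h => by
        have hd := step _ h
        rw [show D.x * (D.x * e * D.x⁻¹) * D.x⁻¹ = D.x⁻¹ * e * D.x by
          calc D.x * (D.x * e * D.x⁻¹) * D.x⁻¹ = D.x * D.x * e * (D.x * D.x)⁻¹ := by group
            _ = _ := by rw [← D.x_inv, inv_inv]] at hd
        exact hu.d_not_double m2 (fun p h1 h2 h3 => hW'' p ⟨h1, h2, h3⟩) hd
      rcases c1 with a | a | a | a
      · exact n1 a
      · exact k3 a
      all_goals rcases c2 with b | b | b | b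
      all_goals first | exact absurd b n2 | exact absurd b k2 | exact absurd (nd a b) d3 | skip
      all_goals rcases hecase with c | c | c
      all_goals first | exact absurd c k1 | exact absurd (nd a c) d1 | exact absurd (nd c b) d2
    obtain ⟨qt, hqt, et⟩ := hout D.t D.t_mem D.t_ne (Or.inl (Or.inl rfl))
    obtain ⟨qu, hqu, eu⟩ := hout u hu.mem hu.u_ne (Or.inr (Or.inl (Or.inl rfl)))
    obtain ⟨qm, hqm, em⟩ := hout (D.t * u) (Q.mul_mem D.t_mem hu.mem) hu.tu_ne (Or.inr (Or.inr (Or.inl rfl)))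
    have cm : ∀ {a p q : Hz z}, a ∈ Q → W p → W q → (p * q * a = a * (p * q) ↔ (p * a = a * p ↔ q * a = a * q)) :=
      fun ha hp hq => comm_mul_iff D.hs ha hp.1 hq.1
    have htu : qm * D.t = D.t * qm ↔ ¬ qm * u = u * qm := by
      constructor
      · exact fun h h' => em ((show Commute qm D.t from h).mul_right (show Commute qm u from h')).eq
      · intro h'
        by_contra h
        refine em ?_
        rcases conj_cases D.hs D.t_mem hqm.1 with e | e
        · exact absurd (mul_inv_eq_iff_eq_mul.1 e) h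
        rcases conj_cases D.hs hu.mem hqm.1 with e' | e'
        · exact absurd (mul_inv_eq_iff_eq_mul.1 e') h'
        refine mul_inv_eq_iff_eq_mul.1 ?_
        calc qm * (D.t * u) * qm⁻¹ = (qm * D.t * qm⁻¹) * (qm * u * qm⁻¹) := by group
          _ = D.t * u := by
            rw [e, e', mul_assoc, ← mul_assoc D.t, zH_comm, mul_assoc (zH z) D.t, zH_cancel D.hs]
    obtain ⟨a, haW, haa, hab⟩ : ∃ q, W q ∧ q * D.t ≠ D.t * q ∧ q * u = u * q := by
      by_cases h1 : qt * u = u * qt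
      · exact ⟨qt, hqt, et, h1⟩
      by_cases h2 : qm * D.t = D.t * qm
      · exact ⟨qt * qm, hWmul _ _ hqt hqm, fun e => et (((cm D.t_mem hqt hqm).1 e).2 h2),
          (cm hu.mem hqt hqm).2 (iff_of_false h1 (htu.1 h2))⟩
      · exact ⟨qm, hqm, h2, by_contra fun h => h2 (htu.2 h)⟩
    obtain ⟨b, hbW, hba, hbb⟩ : ∃ q, W q ∧ q * D.t = D.t * q ∧ q * u ≠ u * q := by
      by_cases h1 : qu * D.t = D.t * qu
      · exact ⟨qu, hqu, h1, eu⟩
      exact ⟨a * qu, hWmul _ _ haW hqu, (cm D.t_mem haW hqu).2 (iff_of_false haa h1),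
        fun e => eu (((cm hu.mem haW hqu).1 e).1 hab)⟩
    have hall : ∀ q ∈ Q, W q := by
      have stepA : ∀ q ∈ Q, q * D.t = D.t * q → W q := by
        intro q hq h1
        by_cases h2 : q * u = u * q
        · exact hPW q ⟨hq, h1, h2⟩
        have hp : W (q * b) := hPW _ ⟨Q.mul_mem hq hbW.1, (comm_mul_iff D.hs D.t_mem hq hbW.1).2 (iff_of_true h1 hba),
          (comm_mul_iff D.hs hu.mem hq hbW.1).2 (iff_of_false h2 hbb)⟩
        refine ⟨hq, ?_⟩
        have h3 := near_mul D.hs hp.2 (near_one_of_near D.hs hbW.2 |> fun _ =>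
          show Near (n * b⁻¹ * n⁻¹) b⁻¹ by
            have h4 := near_mul D.hs (near_mul D.hs (Or.inl rfl : Near (n * b * n⁻¹)⁻¹ (n * b * n⁻¹)⁻¹) hbW.2)
              (Or.inl rfl : Near b⁻¹ b⁻¹)
            rw [inv_mul_cancel, one_mul, mul_inv_cancel_right,
              show (n * b * n⁻¹)⁻¹ = n * b⁻¹ * n⁻¹ by group] at h4
            exact near_symm D.hs h4)
        rwa [show n * (q * b) * n⁻¹ * (n * b⁻¹ * n⁻¹) = n * q * n⁻¹ by group, mul_inv_cancel_right] at h3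
      intro q hq
      by_cases h1 : q * D.t = D.t * q
      · exact stepA q hq h1
      have hp := stepA _ (Q.mul_mem hq haW.1) ((comm_mul_iff D.hs D.t_mem hq haW.1).2 (iff_of_false h1 haa))
      refine ⟨hq, ?_⟩
      have h4 := near_mul D.hs (near_mul D.hs (Or.inl rfl : Near (n * a * n⁻¹)⁻¹ (n * a * n⁻¹)⁻¹) haW.2)
        (Or.inl rfl : Near a⁻¹ a⁻¹)
      rw [inv_mul_cancel, one_mul, mul_inv_cancel_right, show (n * a * n⁻¹)⁻¹ = n * a⁻¹ * n⁻¹ by group] at h4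
      have h3 := near_mul D.hs hp.2 (near_symm D.hs h4)
      rwa [show n * (q * a) * n⁻¹ * (n * a⁻¹ * n⁻¹) = n * q * n⁻¹ by group, mul_inv_cancel_right] at h3
    rw [hqn]
    exact Q.mul_mem hq0 (mem_Q_of_mod D.hs fun q hq => (hall q hq).2)
  · -- `n` inverts `x`: impossible
    exfalso
    have ud : u ∈ Q := hu.mem
    obtain ⟨⟨⟨p, hpQ⟩, hp⟩, hp1⟩ : ∃ p : {q : Q // ∀ i : Fin 4, (q : Hz z) *
        ![D.t, u, D.x⁻¹ * D.t * D.x, D.x⁻¹ * u * D.x] i =
        ![D.t, u, D.x⁻¹ * D.t * D.x, D.x⁻¹ * u * D.x] i * (q : Hz z)}, ¬ Near ((p : Q) : Hz z) 1 := by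
      by_contra hcon
      push Not at hcon
      have hc := card_comm_le (k := 4) D.hs ![D.t, u, D.x⁻¹ * D.t * D.x, D.x⁻¹ * u * D.x] (by
        intro i; fin_cases i
        · exact D.t_mem
        · exact ud
        · simpa using conjQ D.x⁻¹ D.t_mem
        · simpa using conjQ D.x⁻¹ ud)
      have h2 : Nat.card {q : Q // ∀ i : Fin 4, (q : Hz z) * ![D.t, u, D.x⁻¹ * D.t * D.x, D.x⁻¹ * u * D.x] i =
          ![D.t, u, D.x⁻¹ * D.t * D.x, D.x⁻¹ * u * D.x] i * (q : Hz z)} ≤ 2 := by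
        refine le_trans (Nat.card_le_card_of_injective (fun p => decide (((p.1 : Q) : Hz z) = 1)) ?_) (by simp)
        intro p p' h
        simp only [decide_eq_decide] at h
        refine Subtype.ext (Subtype.ext ?_)
        rcases hcon p with e | e <;> rcases hcon p' with e' | e'
        · rw [e, e']
        · exact e.trans (h.1 e).symm
        · exact (h.2 e').trans e'.symm
        · rw [e, e']
      rw [D.hs.2.2.2.1] at hc
      exact absurd (hc.trans (Nat.mul_le_mul_right _ h2)) (by norm_num)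
    have hP1 : P p := ⟨hpQ, hp 0, hp 1⟩
    have hP2 : P (D.x * p * D.x⁻¹) := by
      have a := hp 2
      have b := hp 3
      simp only [Matrix.cons_val] at a b
      refine ⟨conjQ _ hpQ, ?_, ?_⟩
      · calc D.x * p * D.x⁻¹ * D.t = D.x * (p * (D.x⁻¹ * D.t * D.x)) * D.x⁻¹ := by group
          _ = _ := by rw [a]; group
      · calc D.x * p * D.x⁻¹ * u = D.x * (p * (D.x⁻¹ * u * D.x)) * D.x⁻¹ := by group
          _ = _ := by rw [b]; group
    refine hp1 (D.pow_fpf hpQ ?_)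
    have h1 := (hPW _ hP2).2
    have h2 := near_conj D.hs D.x⁻¹ (hPW _ hP1).2
    rw [show n * (D.x * p * D.x⁻¹) * n⁻¹ = (n * D.x * n⁻¹) * (n * p * n⁻¹) * (n * D.x * n⁻¹)⁻¹ by group, hx] at h1
    rw [show D.x⁻¹ * p * D.x⁻¹⁻¹ = D.x⁻¹ * p * D.x by group] at h2
    exact near_trans D.hs (near_symm D.hs h1) h2

/-- The elements centralising the common centraliser. -/
theorem Wit.centralizes_cases (hu : D.Wit u) {w : Hz z}
    (hw : ∀ p ∈ Q, p * D.t = D.t * p → p * u = u * p → p * w = w * p) :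
    Near w 1 ∨ Near w D.t ∨ Near w u ∨ Near w (D.t * u) := hu.double (hu.mem_of_centralizes hw) hw

end Pair

end CfsgLib.LargeFischer.TypeTwo
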