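import Cfsg.Agent.Lib.LargeFischer.Rows
import Cfsg.Agent.Lib.LargeFischer.CoordsExists
import Cfsg.Agent.Lib.Cores.GenFitting
import Cfsg.Prelude.Def_Sporadic

/-!
Large Fischer type: the conclusion on the centraliser of an involution of `Q` that is not conjugate
to `z` is invariant under conjugation, and such involutions form one class.
-/

set_option autoImplicit false
set_option linter.style.haveILetI false

namespace CfsgLib.LargeFischer.TypeTwo.Transport

/-- The statement on the centraliser of `t`. -/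
def Concl {G : Type*} [Group G] (t : G) : Prop :=
  ∀ (K : Subgroup ↥(Subgroup.centralizer ({t} : Set G))),
    K = Cfsg.generalizedFittingSubgroup ↥(Subgroup.centralizer ({t} : Set G)) →
    ∀ [((Subgroup.zpowers t).subgroupOf (Subgroup.centralizer ({t} : Set G))).Normal],
      Cfsg.IsQuasisimple ↥K ∧ K.index = 2 ∧
      (∃ htc : t ∈ Subgroup.centralizer ({t} : Set G),
        (⟨t, htc⟩ : ↥(Subgroup.centralizer ({t} : Set G))) ∈ K) ∧
      Nonempty (↥(Subgroup.centralizer ({t} : Set G)) ⧸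
        (Subgroup.zpowers t).subgroupOf (Subgroup.centralizer ({t} : Set G)) ≃*
          MulAut Cfsg.Spor.Fi22)

/-- The conclusion passes to conjugates. -/
theorem concl_conj {G : Type*} [Group G] [Finite G] {t t' : G} (g : G) (e : g * t * g⁻¹ = t')
    (h : Concl t) : Concl t' := by
  subst e
  intro K' hK' hn'
  have hiff : ∀ x : G, (MulAut.conj g).toMonoidHom x ∈
      Subgroup.centralizer ({g * t * g⁻¹} : Set G) ↔ x ∈ Subgroup.centralizer ({t} : Set G) := by
    intro x
    rw [Subgroup.mem_centralizer_singleton_iff, Subgroup.mem_centralizer_singleton_iff]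
    show g * x * g⁻¹ * (g * t * g⁻¹) = g * t * g⁻¹ * (g * x * g⁻¹) ↔ _
    rw [show g * x * g⁻¹ * (g * t * g⁻¹) = g * (x * t) * g⁻¹ by group,
      show g * t * g⁻¹ * (g * x * g⁻¹) = g * (t * x) * g⁻¹ by group, mul_left_inj, mul_right_inj]
  have hmap : (Subgroup.centralizer ({t} : Set G)).map (MulAut.conj g).toMonoidHom =
      Subgroup.centralizer ({g * t * g⁻¹} : Set G) := by
    ext y
    obtain ⟨x, rfl⟩ := (MulAut.conj g).surjective y
    exact (Subgroup.mem_map_iff_mem (f := (MulAut.conj g).toMonoidHom)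
      (MulAut.conj g).injective).trans (hiff x).symm
  let φ : ↥(Subgroup.centralizer ({t} : Set G)) ≃*
      ↥(Subgroup.centralizer ({g * t * g⁻¹} : Set G)) :=
    ((MulAut.conj g).subgroupMap (Subgroup.centralizer ({t} : Set G))).trans
      (MulEquiv.subgroupCongr hmap)
  have hφ : ∀ x, ((φ x : ↥(Subgroup.centralizer ({g * t * g⁻¹} : Set G))) : G) =
      g * (x : G) * g⁻¹ := fun _ => rfl
  have hz : ((Subgroup.zpowers t).subgroupOf (Subgroup.centralizer ({t} : Set G))).map
      (φ : ↥(Subgroup.centralizer ({t} : Set G)) →* _) =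
      (Subgroup.zpowers (g * t * g⁻¹)).subgroupOf (Subgroup.centralizer ({g * t * g⁻¹} : Set G)) := by
    ext y
    constructor
    · rintro ⟨x, hx, rfl⟩
      obtain ⟨n, hn⟩ := Subgroup.mem_zpowers_iff.1 (Subgroup.mem_subgroupOf.1 hx)
      exact Subgroup.mem_subgroupOf.2 (Subgroup.mem_zpowers_iff.2 ⟨n, by
        rw [MonoidHom.coe_coe, hφ, ← hn]; exact (map_zpow (MulAut.conj g).toMonoidHom t n).symm⟩)
    · intro hy
      obtain ⟨x, rfl⟩ := φ.surjective y
      obtain ⟨n, hn⟩ := Subgroup.mem_zpowers_iff.1 (Subgroup.mem_subgroupOf.1 hy)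
      refine ⟨x, Subgroup.mem_subgroupOf.2 (Subgroup.mem_zpowers_iff.2 ⟨n, ?_⟩), rfl⟩
      rw [hφ] at hn
      exact (MulAut.conj g).injective ((map_zpow (MulAut.conj g).toMonoidHom t n).trans hn)
  haveI hn : ((Subgroup.zpowers t).subgroupOf (Subgroup.centralizer ({t} : Set G))).Normal := by
    have hc := hn'.comap (φ : ↥(Subgroup.centralizer ({t} : Set G)) →* _)
    rw [← hz] at hc
    convert hc using 1
    exact (Subgroup.comap_map_eq_self_of_injective φ.injective _).symm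
  obtain ⟨hq, hi, ⟨htc, htK⟩, ⟨ψ⟩⟩ := h _ rfl
  set K := Cfsg.generalizedFittingSubgroup ↥(Subgroup.centralizer ({t} : Set G))
  have hKK : K.map φ.toMonoidHom = K' :=
    hK'.symm ▸ CfsgLib.Cores.map_generalizedFittingSubgroup_equiv φ
  refine ⟨?_, ?_, ?_, ⟨(QuotientGroup.congr _ _ φ hz).symm.trans ψ⟩⟩
  · rw [← hKK]
    exact (CfsgLib.Cores.isQuasisimple_congr
      (K.equivMapOfInjective φ.toMonoidHom φ.injective)).1 hq
  · rw [← hKK]
    exact (Subgroup.index_map_equiv K φ).trans hi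
  · refine ⟨(φ ⟨t, htc⟩).2, ?_⟩
    rw [← hKK]
    exact Subgroup.mem_map_of_mem _ htK

/-- The involutions of `Q` not conjugate to `z` are conjugate. -/
theorem exists_conj_noncentral {G : Type*} [Group G] [Finite G] {z : G}
    {Q : Subgroup ↥(Subgroup.centralizer ({z} : Set G))} [Q.Normal]
    (hF : Cfsg.IsOfLargeFischerTypeAt z Q) {s t : G}
    (hs : ∃ h : s ∈ Subgroup.centralizer ({z} : Set G),
      (⟨s, h⟩ : ↥(Subgroup.centralizer ({z} : Set G))) ∈ Q)
    (ht : ∃ h : t ∈ Subgroup.centralizer ({z} : Set G),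
      (⟨t, h⟩ : ↥(Subgroup.centralizer ({z} : Set G))) ∈ Q)
    (hs2 : orderOf s = 2) (ht2 : orderOf t = 2) (hsn : ¬ IsConj z s) (htn : ¬ IsConj z t) :
    ∃ g : G, g * s * g⁻¹ = t := by
  obtain ⟨C⟩ := exists_coords hF
  obtain ⟨c, hc⟩ := C.exists_classData hF.1
  obtain ⟨hsc, hsQ⟩ := hs
  obtain ⟨htc, htQ⟩ := ht
  obtain ⟨v, hv, hv2⟩ := inTwo_of_not_isConj hF.1 C hc (t := ⟨s, hsc⟩) hsQ
    (by rw [← Subgroup.orderOf_coe]; exact hs2) hsn
  obtain ⟨w, hw, hw2⟩ := inTwo_of_not_isConj hF.1 C hc (t := ⟨t, htc⟩) htQ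
    (by rw [← Subgroup.orderOf_coe]; exact ht2) htn
  obtain ⟨γ, hγ⟩ := hc.two_trans v w hv2 hw2
  obtain ⟨a, ha⟩ := Coords.exists_conj_eq hF.1 hv hw hv2.singular.1 hγ
  exact ⟨a.1, congrArg Subtype.val ha⟩

end CfsgLib.LargeFischer.TypeTwo.Transport
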