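import Cfsg.Agent.Lib.LargeFischer.TypeTwo.Pair
import Cfsg.Agent.Lib.LargeFischer.Cent

/-!
Large Fischer type: a witness at an involution of `Q` not conjugate to `z`, from coordinates.
-/

set_option autoImplicit false
set_option linter.unusedSectionVars false
set_option linter.style.haveILetI false

namespace CfsgLib.LargeFischer.TypeTwo

open Orbits

variable {G : Type*} [Group G] [Finite G] {z : G} {Q : Subgroup (Hz z)} [Q.Normal]

/-- The second vector. -/
def wTwo : Pt := ![some 0, none, some 0, none, none, none]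

theorem wt_facts : wt wTwo = 2 ∧ wt (addPt wTwo vTwo) = 2 ∧ wt (addPt vTwo wTwo) = 2 ∧
    ∀ c : ZMod 3, c ≠ 0 → wt (addPt wTwo (shift (fun _ => c) vTwo)) = 3 := by decide

/-- A scalar coset is described by a nonzero shift. -/
theorem exists_shift_x {N M : Subgroup (Hz z)} (c : Chain z Q N M) (F : Coords z Q) {x : Hz z}
    (hx3 : x * (x * x) = 1) (hx : Subgroup.zpowers x ⊔ Q = N) :
    ∃ e : ZMod 3, e ≠ 0 ∧ ∀ v, F.act (QuotientGroup.mk x) v = shift (fun _ => e) v := by
  haveI := c.normalN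
  obtain ⟨a, ha, q, hq, haq⟩ := Subgroup.mem_sup_of_normal_right.1 (hx.ge (c.x_mem_N F))
  obtain ⟨k, rfl⟩ := Subgroup.mem_zpowers_iff.1 ha
  set γ : Hz z ⧸ Q := QuotientGroup.mk x with hγ
  have hk : γ ^ k = QuotientGroup.mk F.x := by
    rw [← haq, QuotientGroup.mk_mul, (QuotientGroup.eq_one_iff q).2 hq, mul_one, hγ, QuotientGroup.mk_zpow]
  have h3 : γ ^ (3 : ℤ) = 1 := by
    rw [hγ, ← QuotientGroup.mk_zpow, show x ^ (3 : ℤ) = x * (x * x) by rw [show (3 : ℤ) = 1 + (1 + 1) from rfl, zpow_add, zpow_add, zpow_one], hx3, QuotientGroup.mk_one]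
  have hk' : γ ^ (k % 3) = QuotientGroup.mk F.x := by
    rw [← hk]
    conv_rhs => rw [← Int.mul_ediv_add_emod k 3, zpow_add, zpow_mul, h3, one_zpow, one_mul]
  obtain h | h | h : k % 3 = 0 ∨ k % 3 = 1 ∨ k % 3 = 2 := by omega
  · exfalso
    rw [h, zpow_zero] at hk'
    have := F.act_x (fun _ => some 0)
    rw [← hk', map_one] at this
    simpa [shift] using congrFun this 0
  · rw [h, zpow_one] at hk'
    exact ⟨1, by decide, fun v => by rw [hk']; exact F.act_x v⟩
  · rw [h] at hk'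
    have e : γ = (QuotientGroup.mk F.x : Hz z ⧸ Q) * QuotientGroup.mk F.x := by
      rw [← hk', ← zpow_add]
      calc γ = γ * γ ^ (3 : ℤ) := by rw [h3, mul_one]
        _ = γ ^ ((2 : ℤ) + 2) := by group
    refine ⟨2, by decide, fun v => ?_⟩
    rw [e, map_mul, Equiv.Perm.mul_apply, F.act_x, F.act_x, shift_shift]
    congr 1

/-- A vector of weight two is not over a conjugate of `z`. -/
theorem not_conj_of_wt_two (F : Coords z Q) (hs : Cfsg.IsExtraspecialCentralizerSetting z Q 6)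
    {cl : ZMod 3} (hcl : F.ClassData cl) {v : Pt} {q : Hz z} (hq : F.Rep v q) (h2 : wt v = 2) :
    ¬ IsConj z (q : G) := by
  intro hcon
  obtain ⟨g, hg⟩ := isConj_iff.1 hcon
  have hne : q ≠ zH z := fun e => by
    have h0 : zeroPt = v := by
      refine (((F.rep_one hs).mul_z hs).unique hs (?_ : F.Rep v (1 * zH z)))
      rw [one_mul, ← e]; exact hq
    rw [← h0, wt_zeroPt] at h2
    omega
  obtain ⟨w, hw⟩ := exists_meetData hs F hcl g q (hq.mem hs) hg hne
  exact not_two_four (Or.inl (hq.unique hs hw.rep ▸ h2)) hw.inFour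

/-- Commutation of two involutions, read in coordinates. -/
theorem comm_iff_even (F : Coords z Q) (hs : Cfsg.IsExtraspecialCentralizerSetting z Q 6) {v w : Pt} {a b : Hz z}
    (ha : F.Rep v a) (hb : F.Rep w b) (a2 : a * a = 1) (b2 : b * b = 1) :
    a * b = b * a ↔ Even (wt (addPt v w)) := by
  have hab : F.Rep (addPt v w) (a * b) := by
    have h0 : F.Rep (addPt v w) (F.lift v * F.lift w) := F.lift_add v w
    rcases ha with rfl | rfl <;> rcases hb with rfl | rfl
    · exact h0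
    · rw [← mul_assoc]; exact h0.mul_z hs
    · rw [mul_assoc, ← zH_comm, ← mul_assoc]; exact h0.mul_z hs
    · have e : F.lift v * zH z * (F.lift w * zH z) = F.lift v * F.lift w := by
        rw [mul_assoc, ← mul_assoc (zH z), ← zH_comm, mul_assoc (F.lift w), zH_sq hs, mul_one]
      rw [e]; exact h0
  rw [← hab.sq hs]
  constructor
  · intro h
    calc a * b * (a * b) = a * b * (b * a) := by rw [← h]
      _ = a * (b * b) * a := by group
      _ = 1 := by rw [b2, mul_one, a2]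
  · intro h
    calc a * b = (a * b)⁻¹ := (inv_eq_of_mul_eq_one_right h).symm
      _ = b * a := by rw [mul_inv_rev, inv_eq_of_mul_eq_one_right a2, inv_eq_of_mul_eq_one_right b2]

/-- The witness. -/
theorem exists_wit {N M : Subgroup (Hz z)} (c : Chain z Q N M) (F : Coords z Q) (D : Pair z Q)
    (hx : Subgroup.zpowers D.x ⊔ Q = N) (ht : ¬ IsConj z (D.t : G)) :
    ∃ u : Hz z, D.Wit u ∧ ¬ IsConj z (u : G) ∧ ¬ IsConj z ((D.t * u : Hz z) : G) := by
  have hs := c.setting
  obtain ⟨cl, hcl⟩ := F.exists_classData hs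
  obtain ⟨e, he0, hex⟩ := exists_shift_x c F D.x3 hx
  obtain ⟨v, hv⟩ := Coords.exists_rep (C := F) D.t_mem
  have hsing : Singular v := (hv.singular_iff hs).2
    ⟨D.t_sq, fun h => D.t_ne (Or.inl h), fun h => D.t_ne (Or.inr (by rw [h, mul_one]))⟩
  have hv2 : InTwo cl v := (singular_cases hsing).resolve_right fun h => ht (isConj_of_inFour hs F hcl hv h)
  obtain ⟨γ, hγ⟩ := hcl.two_trans v vTwo hv2 (Or.inl wt_vTwo)
  obtain ⟨a, rfl⟩ := QuotientGroup.mk_surjective γ
  obtain ⟨e', he', hsh⟩ : ∃ e' : ZMod 3, e' ≠ 0 ∧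
      F.act (QuotientGroup.mk a) (shift (fun _ => e) v) = shift (fun _ => e') vTwo := by
    have hexp : shift (fun _ => e) v = if e = 1 then shift (fun _ => 1) v else
        shift (fun _ => 1) (shift (fun _ => 1) v) := by
      have : ∀ e : ZMod 3, e ≠ 0 → e = 1 ∨ e = 2 := by decide
      rcases this e he0 with rfl | rfl
      · rw [if_pos rfl]
      · rw [if_neg (by decide), shift_shift]; rfl
    rw [hexp]
    rcases F.act_semilinear (QuotientGroup.mk a) with h | h <;> split_ifs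
    · exact ⟨1, by decide, by rw [h, hγ]⟩
    · refine ⟨2, by decide, ?_⟩
      rw [h, h, hγ, shift_shift]; rfl
    · exact ⟨-1, by decide, by rw [h, hγ]⟩
    · refine ⟨1, by decide, ?_⟩
      rw [h, h, hγ, shift_shift]; rfl
  have ht' : F.Rep vTwo (a * D.t * a⁻¹) := hγ ▸ hv.conj hs a
  have hd' : F.Rep (shift (fun _ => e') vTwo) (a * D.d * a⁻¹) := by
    have h1 := (hv.conj hs D.x).conj hs a
    rw [hex, hsh] at h1
    exact h1
  obtain ⟨hw, hwv, hvw, hwd⟩ := wt_facts
  set u1 := F.lift wTwo with hu1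
  have ru : F.Rep wTwo u1 := Or.inl rfl
  have u1sq : u1 * u1 = 1 := (ru.sq hs).2 (by rw [hw]; decide)
  have tsq : a * D.t * a⁻¹ * (a * D.t * a⁻¹) = 1 := by
    rw [show a * D.t * a⁻¹ * (a * D.t * a⁻¹) = a * (D.t * D.t) * a⁻¹ by group, D.t_sq, mul_one, mul_inv_cancel]
  have dsq : a * D.d * a⁻¹ * (a * D.d * a⁻¹) = 1 := by
    rw [show a * D.d * a⁻¹ * (a * D.d * a⁻¹) = a * (D.d * D.d) * a⁻¹ by group, D.d_sq, mul_one, mul_inv_cancel]
  have hconj : ∀ q : Hz z, ¬ IsConj z ((a * q * a⁻¹ : Hz z) : G) → ¬ IsConj z (q : G) := fun q h h' =>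
    h (h'.trans (isConj_iff.2 ⟨(a : G), by simp⟩))
  refine ⟨a⁻¹ * u1 * a, ⟨?_, ?_, ?_, ?_⟩, hconj _ ?_, hconj _ ?_⟩
  · simpa using Pair.conjQ a⁻¹ (F.lift_mem wTwo)
  · rw [show a⁻¹ * u1 * a * (a⁻¹ * u1 * a) = a⁻¹ * (u1 * u1) * a by group, u1sq, mul_one, inv_mul_cancel]
  · have h := (comm_iff_even F hs ru ht' u1sq tsq).2 (by rw [hwv]; decide)
    calc a⁻¹ * u1 * a * D.t = a⁻¹ * (u1 * (a * D.t * a⁻¹)) * a := by group
      _ = D.t * (a⁻¹ * u1 * a) := by rw [h]; group
  · intro h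
    have h' := (comm_iff_even F hs ru hd' u1sq dsq).1 (by
      calc u1 * (a * D.d * a⁻¹) = a * (a⁻¹ * u1 * a * D.d) * a⁻¹ := by group
        _ = a * D.d * a⁻¹ * u1 := by rw [h]; group)
    rw [hwd e' he'] at h'
    exact absurd h' (by decide)
  · rw [show a * (a⁻¹ * u1 * a) * a⁻¹ = u1 by group]
    exact not_conj_of_wt_two F hs hcl ru hw
  · rw [show a * (D.t * (a⁻¹ * u1 * a)) * a⁻¹ = a * D.t * a⁻¹ * u1 by group]
    obtain ⟨w', hw'⟩ := Coords.exists_rep (C := F) (Q.mul_mem (ht'.mem hs) (ru.mem hs))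
    have : w' = addPt vTwo wTwo := by
      refine hw'.unique hs ?_
      have h0 : F.Rep (addPt vTwo wTwo) (F.lift vTwo * F.lift wTwo) := F.lift_add _ _
      rcases ht' with e | e <;> rw [e]
      · exact h0
      · rw [mul_assoc, ← zH_comm, ← mul_assoc]; exact h0.mul_z hs
    subst this
    exact not_conj_of_wt_two F hs hcl hw' hvw

end CfsgLib.LargeFischer.TypeTwo
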